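import Mathlib
import Cfsg.Agent.Lead.Transfer
import Cfsg.Agent.S0494

set_option autoImplicit false

namespace Cfsg.Agent.Helper4.A6

/-- `3` is prime -/
local instance fact3 : Fact (Nat.Prime 3) := ⟨Nat.prime_three⟩

variable {G : Type*} [Group G] [Finite G]

theorem fac3 : (360 : ℕ).factorization 3 = 2 := by
  have e : (360 : ℕ) = 3 ^ 2 * 40 := by norm_num
  rw [e, Nat.factorization_mul (by norm_num) (by norm_num), Finsupp.add_apply,
    Nat.factorization_pow, Finsupp.smul_apply, Nat.Prime.factorization_self Nat.prime_three,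
    Nat.factorization_eq_zero_of_not_dvd (by norm_num)]
  rfl

theorem card_sylow3 (h : Nat.card G = 360) (P : Sylow 3 G) : Nat.card (P : Subgroup G) = 9 := by
  have h1 := P.card_eq_multiplicity
  rw [h, fac3] at h1
  exact h1

theorem sylow3_comm (h : Nat.card G = 360) (P : Sylow 3 G) (a b : G)
    (ha : a ∈ (P : Subgroup G)) (hb : b ∈ (P : Subgroup G)) : a * b = b * a := by
  have hc := IsPGroup.isMulCommutative_of_card_eq_prime_sq (p := 3) (G := (P : Subgroup G))
    (by rw [card_sylow3 h P]; norm_num)
  exact congrArg Subtype.val (hc.is_comm.comm ⟨a, ha⟩ ⟨b, hb⟩)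

theorem le_normalizer_of_le (h : Nat.card G = 360) (P : Sylow 3 G) (D : Subgroup G)
    (hDP : D ≤ (P : Subgroup G)) : (P : Subgroup G) ≤ Subgroup.normalizer (D : Set G) := by
  intro g hg
  rw [Subgroup.mem_normalizer_iff]
  intro d
  constructor
  · intro hd
    have e : g * d * g⁻¹ = d := by rw [sylow3_comm h P g d hg (hDP hd)]; group
    rw [e]; exact hd
  · intro hd
    have e : g * d * g⁻¹ = d := by
      have h1 := sylow3_comm h P g⁻¹ (g * d * g⁻¹) (inv_mem hg) (hDP hd)
      have e2 : d * g⁻¹ = g * d * g⁻¹ * g⁻¹ := by rw [← h1]; group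
      exact (mul_right_cancel e2).symm
    rw [e] at hd; exact hd

section simple

variable [IsSimpleGroup G]

theorem index_ge (h : Nat.card G = 360) (K : Subgroup G) (hK : K ≠ ⊤) : 6 ≤ K.index := by
  have h1 := Cfsg.Agent.S0494.card_dvd_factorial_index K hK
  rw [h] at h1
  by_contra hlt
  push Not at hlt
  have hpos : K.index ≠ 0 := Subgroup.index_ne_zero_of_finite
  generalize K.index = k at *
  interval_cases k
  · exact hpos rfl
  all_goals revert h1; decide

theorem n3 (h : Nat.card G = 360) : Nat.card (Sylow 3 G) = 10 := by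
  obtain ⟨P⟩ : Nonempty (Sylow 3 G) := inferInstance
  have hP := card_sylow3 h P
  have hidx : (P : Subgroup G).index = 40 := by
    have h1 := (P : Subgroup G).card_mul_index
    rw [h, hP] at h1
    omega
  have hn1 : Nat.card (Sylow 3 G) ∣ 40 := hidx ▸ P.card_dvd_index
  have hn2 : Nat.card (Sylow 3 G) ≡ 1 [MOD 3] := card_sylow_modEq_one 3 G
  have hn3 : Nat.card (Sylow 3 G) ≠ 1 :=
    Lead.simple_card_sylow_ne_one P (by rw [hP]; norm_num) (by rw [hP, h]; norm_num)
  have hn4 : Nat.card (Sylow 3 G) ≠ 4 := by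
    intro h4
    have hi : Nat.card (Sylow 3 G) = (Subgroup.normalizer ((P : Subgroup G) : Set G)).index :=
      P.card_eq_index_normalizer
    rw [h4] at hi
    have hne : Subgroup.normalizer ((P : Subgroup G) : Set G) ≠ ⊤ := by
      intro ht; rw [ht, Subgroup.index_top] at hi; omega
    have := index_ge h _ hne
    omega
  have hn40 : Nat.card (Sylow 3 G) ≠ 40 := by
    intro h40
    have h1 := Lead.card_normalizer_mul_card_sylow P
    rw [h40, h] at h1
    have hN9 : Nat.card (Subgroup.normalizer ((P : Subgroup G) : Set G)) = 9 := by omega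
    have hNP : Subgroup.normalizer ((P : Subgroup G) : Set G) = (P : Subgroup G) :=
      (Subgroup.eq_of_le_of_card_ge Subgroup.le_normalizer (by rw [hN9, hP])).symm
    have hNC : Subgroup.normalizer ((P : Subgroup G) : Set G) ≤
        Subgroup.centralizer (P : Set G) := by
      rw [hNP]
      intro x hx
      rw [Subgroup.mem_centralizer_iff]
      intro y hy
      exact sylow3_comm h P y x hy hx
    have hc := MonoidHom.ker_transferSylow_isComplement' P hNC
    have hcard := hc.card_mul_card
    rw [hP, h] at hcard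
    have hK : Nat.card (MonoidHom.transferSylow P hNC).ker = 40 := by omega
    have hn : (MonoidHom.transferSylow P hNC).ker.Normal := inferInstance
    rcases hn.eq_bot_or_eq_top with hb | ht
    · rw [hb, Subgroup.card_bot] at hK; omega
    · rw [ht, Subgroup.card_top, h] at hK; omega
  have hle : Nat.card (Sylow 3 G) ≤ 40 := Nat.le_of_dvd (by norm_num) hn1
  generalize Nat.card (Sylow 3 G) = n at *
  unfold Nat.ModEq at hn2
  interval_cases n <;> omega

theorem card_normalizer3 (h : Nat.card G = 360) (P : Sylow 3 G) :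
    Nat.card (Subgroup.normalizer ((P : Subgroup G) : Set G)) = 36 := by
  have h1 := Lead.card_normalizer_mul_card_sylow P
  rw [n3 h, h] at h1
  omega

/-- distinct Sylow `3`-subgroups meet trivially -/
theorem ti (h : Nat.card G = 360) (P Q : Sylow 3 G) (hPQ : P ≠ Q) :
    (P : Subgroup G) ⊓ (Q : Subgroup G) = ⊥ := by
  by_contra hD
  set D : Subgroup G := (P : Subgroup G) ⊓ (Q : Subgroup G) with hDdef
  have hDP : D ≤ (P : Subgroup G) := inf_le_left
  have hDQ : D ≤ (Q : Subgroup G) := inf_le_right
  have hcP := card_sylow3 h P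
  have hcQ := card_sylow3 h Q
  have hD3 : Nat.card D = 3 := by
    have hdvd : Nat.card D ∣ 9 := hcP ▸ Subgroup.card_dvd_of_le hDP
    have h1 : Nat.card D ≠ 1 := by
      intro h1; exact hD (Subgroup.card_eq_one.mp h1)
    have h9 : Nat.card D ≠ 9 := by
      intro h9
      have e1 : D = (P : Subgroup G) := Subgroup.eq_of_le_of_card_ge hDP (by rw [h9, hcP])
      have e2 : D = (Q : Subgroup G) := Subgroup.eq_of_le_of_card_ge hDQ (by rw [h9, hcQ])
      exact hPQ (Sylow.ext (e1.symm.trans e2))
    have hle : Nat.card D ≤ 9 := Nat.le_of_dvd (by norm_num) hdvd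
    generalize Nat.card D = n at *
    interval_cases n <;> omega
  set M := Subgroup.normalizer (D : Set G) with hM
  have hPM : (P : Subgroup G) ≤ M := le_normalizer_of_le h P D hDP
  have hQM : (Q : Subgroup G) ≤ M := le_normalizer_of_le h Q D hDQ
  have hMtop : M ≠ ⊤ := by
    intro ht
    have hn : D.Normal := Subgroup.normalizer_eq_top_iff.mp ht
    rcases hn.eq_bot_or_eq_top with hb | ht'
    · exact hD hb
    · rw [ht', Subgroup.card_top, h] at hD3; omega
  have hMidx := index_ge h M hMtop
  have hMcard : Nat.card M ≤ 60 := by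
    have h1 := M.card_mul_index
    rw [h] at h1
    nlinarith
  let P' : Sylow 3 M := P.subtype hPM
  let Q' : Sylow 3 M := Q.subtype hQM
  have hP'Q' : P' ≠ Q' := fun e => hPQ (Sylow.subtype_injective e)
  have hn2 : Nat.card (Sylow 3 M) ≡ 1 [MOD 3] := card_sylow_modEq_one 3 M
  have hn4 : 4 ≤ Nat.card (Sylow 3 M) := by
    have h2 : 2 ≤ Nat.card (Sylow 3 M) := by
      by_contra hlt
      push Not at hlt
      have h1 : Nat.card (Sylow 3 M) ≤ 1 := by omega
      rw [Finite.card_le_one_iff_subsingleton] at h1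
      exact hP'Q' (Subsingleton.elim _ _)
    unfold Nat.ModEq at hn2
    omega
  have hcP' : Nat.card (P' : Subgroup M) = 9 := by
    rw [Sylow.coe_subtype, Nat.card_congr (Subgroup.subgroupOfEquivOfLe hPM).toEquiv, hcP]
  have hNM := Lead.card_normalizer_mul_card_sylow P'
  have hN9 : Nat.card (Subgroup.normalizer ((P' : Subgroup M) : Set M)) = 9 := by
    have hdvd : 9 ∣ Nat.card (Subgroup.normalizer ((P' : Subgroup M) : Set M)) :=
      hcP' ▸ Subgroup.card_dvd_of_le Subgroup.le_normalizer
    have h15 : Nat.card (Subgroup.normalizer ((P' : Subgroup M) : Set M)) ≤ 15 := by nlinarith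
    obtain ⟨c, hc⟩ := hdvd
    have hpos : 0 < Nat.card (Subgroup.normalizer ((P' : Subgroup M) : Set M)) := Nat.card_pos
    omega
  have hNP' : Subgroup.normalizer ((P' : Subgroup M) : Set M) = (P' : Subgroup M) :=
    (Subgroup.eq_of_le_of_card_ge Subgroup.le_normalizer (by rw [hN9, hcP'])).symm
  have key : ∀ n : G, n ∈ Subgroup.normalizer ((P : Subgroup G) : Set G) → n ∈ M →
      n ∈ (P : Subgroup G) := by
    intro n hnP hnM
    have h1 : (⟨n, hnM⟩ : M) ∈ Subgroup.normalizer ((P' : Subgroup M) : Set M) := by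
      rw [Subgroup.mem_normalizer_iff]
      intro m
      rw [Sylow.coe_subtype, Subgroup.mem_subgroupOf, Subgroup.mem_subgroupOf]
      exact (Subgroup.mem_normalizer_iff.mp hnP) (m : G)
    rw [hNP', Sylow.coe_subtype, Subgroup.mem_subgroupOf] at h1
    exact h1
  set N := Subgroup.normalizer ((P : Subgroup G) : Set G) with hN
  have hstab : ∀ n : N, n • Q = Q → (n : G) ∈ D := by
    intro n hn
    have hnQ : (n : G) ∈ Subgroup.normalizer ((Q : Subgroup G) : Set G) :=
      Sylow.smul_eq_iff_mem_normalizer.mp hn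
    have hnD : (n : G) ∈ M := by
      rw [hM, Subgroup.mem_normalizer_iff]
      intro d
      have hP' := Subgroup.mem_normalizer_iff.mp n.2 d
      have hQ' := Subgroup.mem_normalizer_iff.mp hnQ d
      show d ∈ (P : Subgroup G) ⊓ (Q : Subgroup G) ↔
        (n : G) * d * (n : G)⁻¹ ∈ (P : Subgroup G) ⊓ (Q : Subgroup G)
      rw [Subgroup.mem_inf, Subgroup.mem_inf, hP', hQ']
    have hnP : (n : G) ∈ (P : Subgroup G) := key n n.2 hnD
    have hnQ' : (n : G) ∈ (P : Subgroup G) ⊓ Subgroup.normalizer ((Q : Subgroup G) : Set G) :=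
      ⟨hnP, hnQ⟩
    have e : (P : Subgroup G) ⊓ Subgroup.normalizer ((Q : Subgroup G) : Set G) =
        (P : Subgroup G) ⊓ (Q : Subgroup G) := P.isPGroup'.inf_normalizer_sylow Q
    rw [e] at hnQ'
    exact hnQ'
  have hos : Nat.card (MulAction.orbit N Q) * Nat.card (MulAction.stabilizer N Q) = Nat.card N := by
    rw [Nat.card_congr (MulAction.orbitEquivQuotientStabilizer N Q)]
    exact (Subgroup.card_eq_card_quotient_mul_card_subgroup _).symm
  have hcN : Nat.card N = 36 := card_normalizer3 h P
  have hst : Nat.card (MulAction.stabilizer N Q) ≤ 3 := by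
    have h1 := Nat.card_le_card_of_injective (fun n : MulAction.stabilizer N Q =>
      (⟨((n : N) : G), hstab n (MulAction.mem_stabilizer_iff.mp n.2)⟩ : D)) (by
        intro a b hab
        apply Subtype.ext; apply Subtype.ext
        exact congrArg (fun d : D => (d : G)) hab)
    rwa [hD3] at h1
  have horb : Nat.card (MulAction.orbit N Q) ≤ 9 := by
    rw [Nat.card_coe_set_eq]
    have hP : P ∉ MulAction.orbit N Q := by
      rintro ⟨n, hn⟩
      have h1 : (n : G) • Q = P := hn
      have h2 : Q = (n : G)⁻¹ • P := by rw [← h1, inv_smul_smul]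
      have h3 : (n : G)⁻¹ • P = P := Sylow.smul_eq_iff_mem_normalizer.mpr (inv_mem n.2)
      exact hPQ (h2.trans h3).symm
    have h1 : (insert P (MulAction.orbit N Q)).ncard = (MulAction.orbit N Q).ncard + 1 :=
      Set.ncard_insert_of_notMem hP
    have h2 : (insert P (MulAction.orbit N Q)).ncard ≤ Nat.card (Sylow 3 G) :=
      Set.ncard_le_card _
    rw [n3 h] at h2
    omega
  rw [hcN] at hos
  nlinarith

end simple

end Cfsg.Agent.Helper4.A6
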