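import Mathlib
import Cfsg.Agent.Helper4.A6a
import Cfsg.Agent.Helper4.Simple168f

set_option autoImplicit false

namespace Cfsg.Agent.Helper4.A6

open Cfsg.Agent.Helper4.Simple168e Cfsg.Agent.Helper4.Simple168f

/-- `3` is prime -/
local instance fact3' : Fact (Nat.Prime 3) := ⟨Nat.prime_three⟩

/-- two distinct Sylow `3`-subgroups and two generators of the first -/
structure Cfg (G : Type*) [Group G] where
  P : Sylow 3 G
  Q : Sylow 3 G
  x1 : G
  x2 : G
  hQP : Q ≠ P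
  h1 : x1 ∈ (P : Subgroup G)
  h2 : x2 ∈ (P : Subgroup G)
  o1 : x1 ^ 3 = 1
  o2 : x2 ^ 3 = 1
  gen : ∀ g ∈ (P : Subgroup G), ∃ a < 3, ∃ b < 3, g = x1 ^ a * x2 ^ b

variable {G : Type*} [Group G] [Finite G]

namespace Cfg

variable (c : Cfg G)

/-- the element `x1 ^ a * x2 ^ b` -/
def elt (a b : ℕ) : G := c.x1 ^ a * c.x2 ^ b

theorem elt_mem (a b : ℕ) : c.elt a b ∈ (c.P : Subgroup G) :=
  mul_mem (pow_mem c.h1 a) (pow_mem c.h2 b)

theorem comm (h : Nat.card G = 360) : Commute c.x1 c.x2 := sylow3_comm h c.P _ _ c.h1 c.h2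

theorem elt_mul (h : Nat.card G = 360) (a b a' b' : ℕ) :
    c.elt a b * c.elt a' b' = c.elt (a + a') (b + b') := by
  unfold elt
  have hc : Commute (c.x2 ^ b) (c.x1 ^ a') := ((c.comm h).pow_pow a' b).symm
  calc c.x1 ^ a * c.x2 ^ b * (c.x1 ^ a' * c.x2 ^ b')
      = c.x1 ^ a * (c.x2 ^ b * c.x1 ^ a') * c.x2 ^ b' := by group
    _ = c.x1 ^ a * (c.x1 ^ a' * c.x2 ^ b) * c.x2 ^ b' := by rw [hc.eq]
    _ = c.x1 ^ (a + a') * c.x2 ^ (b + b') := by rw [pow_add, pow_add]; group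

theorem elt_mod (a b : ℕ) : c.elt (a % 3) (b % 3) = c.elt a b := by
  unfold elt
  rw [← pow_eq_pow_mod a c.o1, ← pow_eq_pow_mod b c.o2]

theorem elt_zero : c.elt 0 0 = 1 := by unfold elt; simp

theorem elt_pow (h : Nat.card G = 360) (a b n : ℕ) : c.elt a b ^ n = c.elt (a * n) (b * n) := by
  unfold elt
  rw [((c.comm h).pow_pow a b).mul_pow, ← pow_mul, ← pow_mul]

theorem elt_inv (h : Nat.card G = 360) (a b : ℕ) : (c.elt a b)⁻¹ = c.elt (2 * a) (2 * b) := by
  rw [inv_eq_iff_mul_eq_one, c.elt_mul h]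
  have e : c.elt (a + 2 * a) (b + 2 * b) = c.elt ((a + 2 * a) % 3) ((b + 2 * b) % 3) :=
    (c.elt_mod _ _).symm
  rw [e]
  have e1 : (a + 2 * a) % 3 = 0 := by omega
  have e2 : (b + 2 * b) % 3 = 0 := by omega
  rw [e1, e2, c.elt_zero]

theorem elt_bij (h : Nat.card G = 360) :
    Function.Bijective (fun ab : Fin 3 × Fin 3 =>
      (⟨c.elt ab.1 ab.2, c.elt_mem _ _⟩ : (c.P : Subgroup G))) := by
  apply Function.Surjective.bijective_of_nat_card_le
  · rintro ⟨g, hg⟩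
    obtain ⟨a, ha, b, hb, hab⟩ := c.gen g hg
    exact ⟨(⟨a, ha⟩, ⟨b, hb⟩), Subtype.ext hab.symm⟩
  · rw [card_sylow3 h c.P, Nat.card_prod, Nat.card_fin]

theorem elt_inj (h : Nat.card G = 360) (a b a' b' : ℕ) (ha : a < 3) (hb : b < 3) (ha' : a' < 3)
    (hb' : b' < 3) (he : c.elt a b = c.elt a' b') : a = a' ∧ b = b' := by
  have h1 := (c.elt_bij h).1 (a₁ := (⟨a, ha⟩, ⟨b, hb⟩)) (a₂ := (⟨a', ha'⟩, ⟨b', hb'⟩))
    (Subtype.ext he)
  have h2 := congrArg (fun ab : Fin 3 × Fin 3 => (ab.1 : ℕ)) h1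
  have h3 := congrArg (fun ab : Fin 3 × Fin 3 => (ab.2 : ℕ)) h1
  exact ⟨h2, h3⟩

theorem P_fix (g : G) (hg : g ∈ (c.P : Subgroup G)) : g • c.P = c.P :=
  Sylow.smul_eq_iff_mem_normalizer.mpr (Subgroup.le_normalizer hg)

section simple

variable [IsSimpleGroup G]

theorem free (h : Nat.card G = 360) (g : G) (hg : g ∈ (c.P : Subgroup G)) (hgQ : g • c.Q = c.Q) :
    g = 1 := by
  have hN : g ∈ Subgroup.normalizer ((c.Q : Subgroup G) : Set G) :=
    Sylow.smul_eq_iff_mem_normalizer.mp hgQ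
  have h1 : g ∈ (c.P : Subgroup G) ⊓ Subgroup.normalizer ((c.Q : Subgroup G) : Set G) := ⟨hg, hN⟩
  have e : (c.P : Subgroup G) ⊓ Subgroup.normalizer ((c.Q : Subgroup G) : Set G) =
      (c.P : Subgroup G) ⊓ (c.Q : Subgroup G) := c.P.isPGroup'.inf_normalizer_sylow c.Q
  rw [e, ti h c.P c.Q (Ne.symm c.hQP)] at h1
  exact Subgroup.mem_bot.mp h1

/-- the labelling of the Sylow subgroups -/
def lab : Fin 10 → Sylow 3 G := fun i =>
  if (i : ℕ) < 9 then c.elt ((i : ℕ) / 3) ((i : ℕ) % 3) • c.Q else c.P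

theorem lab_ab (a b : ℕ) (ha : a < 3) (hb : b < 3) :
    c.lab ⟨3 * a + b, by omega⟩ = c.elt a b • c.Q := by
  show (if 3 * a + b < 9 then c.elt ((3 * a + b) / 3) ((3 * a + b) % 3) • c.Q else c.P) = _
  rw [if_pos (by omega)]
  have e1 : (3 * a + b) / 3 = a := by omega
  have e2 : (3 * a + b) % 3 = b := by omega
  rw [e1, e2]

theorem lab_lt (i : ℕ) (hi : i < 9) : c.lab ⟨i, by omega⟩ = c.elt (i / 3) (i % 3) • c.Q := by
  show (if i < 9 then c.elt (i / 3) (i % 3) • c.Q else c.P) = _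
  rw [if_pos hi]

theorem lab_last : c.lab ⟨9, by omega⟩ = c.P := by
  show (if 9 < 9 then c.elt (9 / 3) (9 % 3) • c.Q else c.P) = _
  rw [if_neg (lt_irrefl 9)]

theorem lab_zero : c.lab ⟨0, by omega⟩ = c.Q := by
  have h0 := c.lab_ab 0 0 (by omega) (by omega)
  rwa [c.elt_zero, one_smul] at h0

theorem lab_inj (h : Nat.card G = 360) : Function.Injective c.lab := by
  rintro ⟨i, hi⟩ ⟨j, hj⟩ hij
  by_cases hi9 : i < 9 <;> by_cases hj9 : j < 9
  · rw [c.lab_lt i hi9, c.lab_lt j hj9] at hij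
    have h1 : ((c.elt (j / 3) (j % 3))⁻¹ * c.elt (i / 3) (i % 3)) • c.Q = c.Q := by
      rw [mul_smul, hij, inv_smul_smul]
    have h2 := c.free h _ (mul_mem (inv_mem (c.elt_mem _ _)) (c.elt_mem _ _)) h1
    have h3 : c.elt (i / 3) (i % 3) = c.elt (j / 3) (j % 3) := by
      calc c.elt (i / 3) (i % 3)
          = c.elt (j / 3) (j % 3) * ((c.elt (j / 3) (j % 3))⁻¹ * c.elt (i / 3) (i % 3)) := by
            group
        _ = c.elt (j / 3) (j % 3) := by rw [h2, mul_one]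
    have h4 := c.elt_inj h _ _ _ _ (by omega) (by omega) (by omega) (by omega) h3
    apply Fin.ext
    show i = j
    omega
  · exfalso
    have hj' : j = 9 := by omega
    subst hj'
    rw [c.lab_lt i hi9, c.lab_last] at hij
    apply c.hQP
    have e : c.Q = (c.elt (i / 3) (i % 3))⁻¹ • c.P := by rw [← hij, inv_smul_smul]
    rw [e]; exact c.P_fix _ (inv_mem (c.elt_mem _ _))
  · exfalso
    have hi' : i = 9 := by omega
    subst hi'
    rw [c.lab_lt j hj9, c.lab_last] at hij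
    apply c.hQP
    have e : c.Q = (c.elt (j / 3) (j % 3))⁻¹ • c.P := by rw [hij, inv_smul_smul]
    rw [e]; exact c.P_fix _ (inv_mem (c.elt_mem _ _))
  · have hi' : i = 9 := by omega
    have hj' : j = 9 := by omega
    exact Fin.ext (hi'.trans hj'.symm)

theorem lab_bij (h : Nat.card G = 360) : Function.Bijective c.lab :=
  (c.lab_inj h).bijective_of_nat_card_le (by rw [n3 h, Nat.card_fin])

/-- the labelling as an equivalence -/
noncomputable def labE (h : Nat.card G = 360) : Fin 10 ≃ Sylow 3 G :=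
  Equiv.ofBijective c.lab (c.lab_bij h)

/-- the permutation representation on the labels -/
noncomputable def psi (h : Nat.card G = 360) : G →* Equiv.Perm (Fin 10) :=
  ((c.labE h).symm.permCongrHom).toMonoidHom.comp (MulAction.toPermHom G (Sylow 3 G))

theorem psi_apply (h : Nat.card G = 360) (g : G) (i j : Fin 10)
    (hg : g • c.lab i = c.lab j) : c.psi h g i = j := by
  show (c.labE h).symm (g • (c.labE h) i) = j
  rw [Equiv.symm_apply_eq]
  exact hg

theorem lab_psi (h : Nat.card G = 360) (g : G) (i : Fin 10) :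
    c.lab (c.psi h g i) = g • c.lab i := by
  show (c.labE h) ((c.labE h).symm (g • (c.labE h) i)) = _
  rw [Equiv.apply_symm_apply]; rfl

theorem psi_P (h : Nat.card G = 360) (g : G) (a' b' : ℕ) (hg : g = c.elt a' b') (a b : ℕ)
    (ha : a < 3) (hb : b < 3) :
    c.psi h g ⟨3 * a + b, by omega⟩ = ⟨3 * ((a' + a) % 3) + (b' + b) % 3, by omega⟩ := by
  apply c.psi_apply
  rw [c.lab_ab a b ha hb, c.lab_ab ((a' + a) % 3) ((b' + b) % 3) (by omega) (by omega),
    ← mul_smul, hg, c.elt_mul h, c.elt_mod]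

theorem psi_P_last (h : Nat.card G = 360) (g : G) (hg : g ∈ (c.P : Subgroup G)) :
    c.psi h g ⟨9, by omega⟩ = ⟨9, by omega⟩ := by
  apply c.psi_apply
  rw [c.lab_last]; exact c.P_fix _ hg

theorem psi_inj (h : Nat.card G = 360) : Function.Injective (c.psi h) := by
  rw [← MonoidHom.ker_eq_bot_iff]
  rcases IsSimpleGroup.eq_bot_or_eq_top_of_normal (c.psi h).ker (MonoidHom.normal_ker _)
    with hb | ht
  · exact hb
  · exfalso
    have hyp : ∀ g : G, g • c.Q = c.Q := by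
      intro g
      have hgk : g ∈ (c.psi h).ker := by rw [ht]; trivial
      rw [MonoidHom.mem_ker] at hgk
      have h1 := c.lab_psi h g ⟨0, by omega⟩
      rw [hgk, Equiv.Perm.one_apply, c.lab_zero] at h1
      exact h1.symm
    obtain ⟨g, hg⟩ := MulAction.exists_smul_eq G c.Q c.P
    exact c.hQP ((hyp g).symm.trans hg)

/-- the stabiliser of the two base points -/
def stabH : Subgroup G := MulAction.stabilizer G c.P ⊓ MulAction.stabilizer G c.Q

theorem mem_stabH {g : G} : g ∈ c.stabH ↔ g • c.P = c.P ∧ g • c.Q = c.Q := by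
  show g ∈ MulAction.stabilizer G c.P ⊓ MulAction.stabilizer G c.Q ↔ _
  rw [Subgroup.mem_inf, MulAction.mem_stabilizer_iff, MulAction.mem_stabilizer_iff]

theorem exists_elt_smul (h : Nat.card G = 360) (R : Sylow 3 G) (hR : R ≠ c.P) :
    ∃ a < 3, ∃ b < 3, R = c.elt a b • c.Q := by
  obtain ⟨⟨i, hi⟩, hi2⟩ := (c.lab_bij h).2 R
  by_cases hi9 : i < 9
  · rw [c.lab_lt i hi9] at hi2
    exact ⟨i / 3, by omega, i % 3, by omega, hi2.symm⟩
  · exfalso
    have hi' : i = 9 := by omega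
    subst hi'
    rw [c.lab_last] at hi2
    exact hR hi2.symm

theorem smul_Q_ne (g : G) (hg : g • c.P = c.P) : g • c.Q ≠ c.P := by
  intro h1
  apply c.hQP
  have e : g • c.Q = g • c.P := by rw [h1, hg]
  exact smul_left_cancel g e

theorem decompN (h : Nat.card G = 360) (g : G) (hg : g • c.P = c.P) :
    ∃ a < 3, ∃ b < 3, (c.elt a b)⁻¹ * g ∈ c.stabH := by
  obtain ⟨a, ha, b, hb, hab⟩ := c.exists_elt_smul h (g • c.Q) (c.smul_Q_ne g hg)
  refine ⟨a, ha, b, hb, ?_⟩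
  rw [c.mem_stabH]
  constructor
  · rw [mul_smul, hg]; exact c.P_fix _ (inv_mem (c.elt_mem _ _))
  · rw [mul_smul, hab, inv_smul_smul]

end simple

end Cfg

end Cfsg.Agent.Helper4.A6
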