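import Mathlib
import Cfsg.Agent.Helper4.A6b

set_option autoImplicit false

namespace Cfsg.Agent.Helper4.A6

open Cfsg.Agent.Helper4.Simple168e Cfsg.Agent.Helper4.Simple168f

/-- `3` is prime -/
local instance fact3'' : Fact (Nat.Prime 3) := ⟨Nat.prime_three⟩

variable {G : Type*} [Group G] [Finite G] [IsSimpleGroup G]

/-- the stabiliser of two Sylow subgroups -/
def stabPQ (P Q : Sylow 3 G) : Subgroup G := MulAction.stabilizer G P ⊓ MulAction.stabilizer G Q

theorem mem_stabPQ {P Q : Sylow 3 G} {g : G} : g ∈ stabPQ P Q ↔ g • P = P ∧ g • Q = Q := by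
  show g ∈ MulAction.stabilizer G P ⊓ MulAction.stabilizer G Q ↔ _
  rw [Subgroup.mem_inf, MulAction.mem_stabilizer_iff, MulAction.mem_stabilizer_iff]

theorem free_PQ (h : Nat.card G = 360) (P Q : Sylow 3 G) (hQP : Q ≠ P) (g : G)
    (hg : g ∈ (P : Subgroup G)) (hgQ : g • Q = Q) : g = 1 := by
  have hN : g ∈ Subgroup.normalizer ((Q : Subgroup G) : Set G) :=
    Sylow.smul_eq_iff_mem_normalizer.mp hgQ
  have h1 : g ∈ (P : Subgroup G) ⊓ Subgroup.normalizer ((Q : Subgroup G) : Set G) := ⟨hg, hN⟩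
  have e : (P : Subgroup G) ⊓ Subgroup.normalizer ((Q : Subgroup G) : Set G) =
      (P : Subgroup G) ⊓ (Q : Subgroup G) := P.isPGroup'.inf_normalizer_sylow Q
  rw [e, ti h P Q (Ne.symm hQP)] at h1
  exact Subgroup.mem_bot.mp h1

theorem card_stabPQ (h : Nat.card G = 360) (P Q : Sylow 3 G) (hQP : Q ≠ P) :
    Nat.card (stabPQ P Q) = 4 := by
  set N := Subgroup.normalizer ((P : Subgroup G) : Set G) with hN
  have hcN : Nat.card N = 36 := card_normalizer3 h P
  have hle : stabPQ P Q ≤ N := fun g hg =>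
    Sylow.smul_eq_iff_mem_normalizer.mp (mem_stabPQ.mp hg).1
  have hinf : (P : Subgroup G) ⊓ stabPQ P Q = ⊥ := by
    rw [eq_bot_iff]
    rintro g ⟨hgP, hgH⟩
    exact Subgroup.mem_bot.mpr (free_PQ h P Q hQP g hgP (mem_stabPQ.mp hgH).2)
  have h1 := card_mul_le (P : Subgroup G) (stabPQ P Q) N Subgroup.le_normalizer hle hinf
  rw [card_sylow3 h P, hcN] at h1
  have hos : Nat.card (MulAction.orbit N Q) * Nat.card (MulAction.stabilizer N Q) =
      Nat.card N := by
    rw [Nat.card_congr (MulAction.orbitEquivQuotientStabilizer N Q)]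
    exact (Subgroup.card_eq_card_quotient_mul_card_subgroup _).symm
  have horb : Nat.card (MulAction.orbit N Q) ≤ 9 := by
    rw [Nat.card_coe_set_eq]
    have hP : P ∉ MulAction.orbit N Q := by
      rintro ⟨n, hn⟩
      have h1 : (n : G) • Q = P := hn
      have h2 : Q = (n : G)⁻¹ • P := by rw [← h1, inv_smul_smul]
      have h3 : (n : G)⁻¹ • P = P := Sylow.smul_eq_iff_mem_normalizer.mpr (inv_mem n.2)
      exact hQP (h2.trans h3)
    have h1 : (insert P (MulAction.orbit N Q)).ncard = (MulAction.orbit N Q).ncard + 1 :=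
      Set.ncard_insert_of_notMem hP
    have h2 : (insert P (MulAction.orbit N Q)).ncard ≤ Nat.card (Sylow 3 G) :=
      Set.ncard_le_card _
    rw [n3 h] at h2
    omega
  have hst : Nat.card (MulAction.stabilizer N Q) ≤ Nat.card (stabPQ P Q) := by
    apply Nat.card_le_card_of_injective (fun n : MulAction.stabilizer N Q =>
      (⟨((n : N) : G), mem_stabPQ.mpr ⟨Sylow.smul_eq_iff_mem_normalizer.mpr (n : N).2,
        MulAction.mem_stabilizer_iff.mp n.2⟩⟩ : stabPQ P Q))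
    intro a b hab
    apply Subtype.ext; apply Subtype.ext
    exact congrArg (fun d : stabPQ P Q => (d : G)) hab
  rw [hcN] at hos
  have h4 : 4 ≤ Nat.card (MulAction.stabilizer N Q) := by
    by_contra hlt
    push Not at hlt
    have h5 : Nat.card (MulAction.orbit N Q) * Nat.card (MulAction.stabilizer N Q) ≤ 9 * 3 :=
      Nat.mul_le_mul horb (by omega)
    omega
  omega

namespace Cfg

variable (c : Cfg G)

theorem stabH_eq : c.stabH = stabPQ c.P c.Q := rfl

theorem card_stabH (h : Nat.card G = 360) : Nat.card c.stabH = 4 := card_stabPQ h c.P c.Q c.hQP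

theorem x1_ne_one (h : Nat.card G = 360) : c.x1 ≠ 1 := by
  intro h1
  have e : c.elt 1 0 = c.elt 0 0 := by unfold elt; simp [h1]
  have := c.elt_inj h 1 0 0 0 (by omega) (by omega) (by omega) (by omega) e
  omega

theorem stabH_faithful (h : Nat.card G = 360) (g : G) (hg : g ∈ c.stabH)
    (hc1 : g * c.x1 = c.x1 * g) (hc2 : g * c.x2 = c.x2 * g) : g = 1 := by
  apply c.psi_inj h
  rw [map_one]
  apply Equiv.ext
  rintro ⟨i, hi⟩
  rw [Equiv.Perm.one_apply]
  apply c.psi_apply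
  by_cases hi9 : i < 9
  · rw [c.lab_lt i hi9, ← mul_smul]
    have e1 : g * c.elt (i / 3) (i % 3) = c.elt (i / 3) (i % 3) * g := by
      unfold elt
      exact (((show Commute g c.x1 from hc1).pow_right _).mul_right
        ((show Commute g c.x2 from hc2).pow_right _)).eq
    rw [e1, mul_smul, (c.mem_stabH.mp hg).2]
  · have hi' : i = 9 := by omega
    subst hi'
    rw [c.lab_last]; exact (c.mem_stabH.mp hg).1

theorem conj_elt (h : Nat.card G = 360) (g : G) (e11 e21 e12 e22 : ℕ)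
    (hx1 : g * c.x1 * g⁻¹ = c.elt e11 e21) (hx2 : g * c.x2 * g⁻¹ = c.elt e12 e22) (a b : ℕ) :
    g * c.elt a b * g⁻¹ = c.elt (e11 * a + e12 * b) (e21 * a + e22 * b) := by
  have e1 : g * c.elt a b * g⁻¹ = (g * c.x1 * g⁻¹) ^ a * (g * c.x2 * g⁻¹) ^ b := by
    unfold elt
    rw [conj_pow, conj_pow]; group
  rw [e1, hx1, hx2, c.elt_pow h, c.elt_pow h, c.elt_mul h]

theorem psi_H (h : Nat.card G = 360) (g : G) (hg : g ∈ c.stabH) (e11 e21 e12 e22 : ℕ)
    (hx1 : g * c.x1 * g⁻¹ = c.elt e11 e21) (hx2 : g * c.x2 * g⁻¹ = c.elt e12 e22) (a b : ℕ)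
    (ha : a < 3) (hb : b < 3) :
    c.psi h g ⟨3 * a + b, by omega⟩ =
      ⟨3 * ((e11 * a + e12 * b) % 3) + (e21 * a + e22 * b) % 3, by omega⟩ := by
  apply c.psi_apply
  rw [c.lab_ab a b ha hb, c.lab_ab _ _ (by omega) (by omega), ← mul_smul]
  have e1 : g * c.elt a b = c.elt (e11 * a + e12 * b) (e21 * a + e22 * b) * g := by
    rw [← c.conj_elt h g e11 e21 e12 e22 hx1 hx2 a b]; group
  rw [e1, mul_smul, (c.mem_stabH.mp hg).2, c.elt_mod]

theorem psi_H_last (h : Nat.card G = 360) (g : G) (hg : g ∈ c.stabH) :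
    c.psi h g ⟨9, by omega⟩ = ⟨9, by omega⟩ := by
  apply c.psi_apply
  rw [c.lab_last]; exact (c.mem_stabH.mp hg).1

theorem exists_t (h : Nat.card G = 360) : ∃ t : G, t • c.P = c.Q ∧ t • c.Q = c.P := by
  obtain ⟨g, hg⟩ := MulAction.exists_smul_eq G c.Q c.P
  have hgP : g • c.P ≠ c.P := by
    intro hgP
    apply c.hQP
    have e1 : g • c.Q = g • c.P := by rw [hg, hgP]
    exact smul_left_cancel g e1
  obtain ⟨a, ha, b, hb, hab⟩ := c.exists_elt_smul h _ hgP
  refine ⟨(c.elt a b)⁻¹ * g, ?_, ?_⟩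
  · rw [mul_smul, hab, inv_smul_smul]
  · rw [mul_smul, hg]; exact c.P_fix _ (inv_mem (c.elt_mem _ _))

theorem psi_t_last (h : Nat.card G = 360) (t : G) (htP : t • c.P = c.Q) :
    c.psi h t ⟨9, by omega⟩ = ⟨0, by omega⟩ := by
  apply c.psi_apply
  rw [c.lab_last, htP, c.lab_zero]

theorem psi_t_zero (h : Nat.card G = 360) (t : G) (htQ : t • c.Q = c.P) :
    c.psi h t ⟨0, by omega⟩ = ⟨9, by omega⟩ := by
  apply c.psi_apply
  rw [c.lab_last, c.lab_zero, htQ]

theorem decomp (h : Nat.card G = 360) (y : G) (hyH : c.stabH = Subgroup.zpowers y)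
    (hym : orderOf y = 4) (g : G) (hg : g • c.P = c.P) :
    ∃ a < 3, ∃ b < 3, ∃ l < 4, g = c.elt a b * y ^ l := by
  obtain ⟨a, ha, b, hb, hmem⟩ := c.decompN h g hg
  rw [hyH] at hmem
  obtain ⟨l, hl, hl2⟩ := exists_pow_lt y 4 hym (by norm_num) _ hmem
  refine ⟨a, ha, b, hb, l, hl, ?_⟩
  rw [hl2]; group

theorem closure_top (h : Nat.card G = 360) (y : G) (hyH : c.stabH = Subgroup.zpowers y)
    (hym : orderOf y = 4) (t : G) (htP : t • c.P = c.Q) :
    Subgroup.closure ({c.x1, c.x2, y, t} : Set G) = ⊤ := by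
  rw [Subgroup.eq_top_iff']
  intro g
  have hx1 : c.x1 ∈ Subgroup.closure ({c.x1, c.x2, y, t} : Set G) :=
    Subgroup.subset_closure (by simp)
  have hx2 : c.x2 ∈ Subgroup.closure ({c.x1, c.x2, y, t} : Set G) :=
    Subgroup.subset_closure (by simp)
  have hyc : y ∈ Subgroup.closure ({c.x1, c.x2, y, t} : Set G) :=
    Subgroup.subset_closure (by simp)
  have htc : t ∈ Subgroup.closure ({c.x1, c.x2, y, t} : Set G) :=
    Subgroup.subset_closure (by simp)
  have helt : ∀ a b, c.elt a b ∈ Subgroup.closure ({c.x1, c.x2, y, t} : Set G) :=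
    fun a b => mul_mem (pow_mem hx1 a) (pow_mem hx2 b)
  have hB : ∀ g : G, g • c.P = c.P → g ∈ Subgroup.closure ({c.x1, c.x2, y, t} : Set G) := by
    intro g hg
    obtain ⟨a, -, b, -, l, -, rfl⟩ := c.decomp h y hyH hym g hg
    exact mul_mem (helt a b) (pow_mem hyc l)
  by_cases hg : g • c.P = c.P
  · exact hB g hg
  · obtain ⟨a, ha, b, hb, hgk⟩ := c.exists_elt_smul h _ hg
    have h1 : ((c.elt a b * t)⁻¹ * g) • c.P = c.P := by
      rw [mul_smul, hgk, ← htP, ← mul_smul (c.elt a b) t, inv_smul_smul]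
    have h2 := hB _ h1
    have e1 : g = (c.elt a b * t) * ((c.elt a b * t)⁻¹ * g) := by group
    rw [e1]
    exact mul_mem (mul_mem (helt a b) htc) h2

theorem rel1 (h : Nat.card G = 360) (y : G) (hyH : c.stabH = Subgroup.zpowers y)
    (hym : orderOf y = 4) (t : G) (htP : t • c.P = c.Q) (htQ : t • c.Q = c.P) :
    ∃ a < 3, ∃ b < 3, ∃ a' < 3, ∃ b' < 3, ∃ l < 4,
      t * c.x1 * t = c.elt a b * t * (c.elt a' b' * y ^ l) := by
  have h1 : (t * c.x1 * t) • c.P ≠ c.P := by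
    rw [mul_smul, mul_smul, htP]
    intro h2
    have e1 : t • (c.x1 • c.Q) = t • c.Q := by rw [h2, htQ]
    exact c.x1_ne_one h (c.free h c.x1 c.h1 (smul_left_cancel t e1))
  obtain ⟨a, ha, b, hb, hg⟩ := c.exists_elt_smul h _ h1
  have h5 : ((c.elt a b * t)⁻¹ * (t * c.x1 * t)) • c.P = c.P := by
    rw [mul_smul, hg, ← htP, ← mul_smul (c.elt a b) t, inv_smul_smul]
  obtain ⟨a', ha', b', hb', l, hl, hkl⟩ := c.decomp h y hyH hym _ h5
  refine ⟨a, ha, b, hb, a', ha', b', hb', l, hl, ?_⟩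
  rw [← hkl]; group

theorem rel2 (h : Nat.card G = 360) (y : G) (hyH : c.stabH = Subgroup.zpowers y)
    (hym : orderOf y = 4) (t : G) (htP : t • c.P = c.Q) (htQ : t • c.Q = c.P) :
    ∃ j < 4, t * y = y ^ j * t := by
  have hyS : y ∈ c.stabH := by rw [hyH]; exact Subgroup.mem_zpowers y
  have hP' : t⁻¹ • c.P = c.Q := by rw [inv_smul_eq_iff, htQ]
  have hQ' : t⁻¹ • c.Q = c.P := by rw [inv_smul_eq_iff, htP]
  have hmem : t * y * t⁻¹ ∈ c.stabH := by
    rw [c.mem_stabH]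
    constructor
    · rw [mul_smul, mul_smul, hP', (c.mem_stabH.mp hyS).2, htQ]
    · rw [mul_smul, mul_smul, hQ', (c.mem_stabH.mp hyS).1, htP]
  rw [hyH] at hmem
  obtain ⟨j, hj, hj2⟩ := exists_pow_lt y 4 hym (by norm_num) _ hmem
  refine ⟨j, hj, ?_⟩
  rw [hj2]; group

theorem psi_rel2 (h : Nat.card G = 360) (y : G) (hyH : c.stabH = Subgroup.zpowers y)
    (hym : orderOf y = 4) (t : G) (htP : t • c.P = c.Q) (htQ : t • c.Q = c.P) :
    ∃ j < 4, ∀ z, c.psi h t (c.psi h y z) = (c.psi h y ^ j) (c.psi h t z) := by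
  obtain ⟨j, hj, hr⟩ := c.rel2 h y hyH hym t htP htQ
  refine ⟨j, hj, fun z => ?_⟩
  have h1 := congrArg (fun g => c.psi h g z) hr
  simp only [map_mul, map_pow, Equiv.Perm.mul_apply] at h1
  exact h1

theorem psi_rel1 (h : Nat.card G = 360) (y : G) (hyH : c.stabH = Subgroup.zpowers y)
    (hym : orderOf y = 4) (t : G) (htP : t • c.P = c.Q) (htQ : t • c.Q = c.P) :
    ∃ a, ∃ ha : a < 3, ∃ b, ∃ hb : b < 3, ∃ a' < 3, ∃ b' < 3, ∃ l < 4,
      c.psi h t (c.psi h c.x1 ⟨0, by omega⟩) = ⟨3 * a + b, by omega⟩ ∧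
      ∀ z, c.psi h t (c.psi h c.x1 (c.psi h t z)) =
        c.psi h (c.elt a b) (c.psi h t (c.psi h (c.elt a' b') ((c.psi h y ^ l) z))) := by
  obtain ⟨a, ha, b, hb, a', ha', b', hb', l, hl, hr⟩ := c.rel1 h y hyH hym t htP htQ
  have hall : ∀ z, c.psi h t (c.psi h c.x1 (c.psi h t z)) =
        c.psi h (c.elt a b) (c.psi h t (c.psi h (c.elt a' b') ((c.psi h y ^ l) z))) := by
    intro z
    have h1 := congrArg (fun g => c.psi h g z) hr
    simp only [map_mul, map_pow, Equiv.Perm.mul_apply] at h1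
    exact h1
  refine ⟨a, ha, b, hb, a', ha', b', hb', l, hl, ?_, hall⟩
  have h2 := hall ⟨9, by omega⟩
  rw [c.psi_t_last h t htP] at h2
  rw [h2]
  have hyS : y ∈ c.stabH := by rw [hyH]; exact Subgroup.mem_zpowers y
  have h3 : c.psi h (c.elt a' b') ((c.psi h y ^ l) ⟨9, by omega⟩) = ⟨9, by omega⟩ := by
    rw [← map_pow, c.psi_H_last h _ (pow_mem hyS l), c.psi_P_last h _ (c.elt_mem _ _)]
  rw [h3, c.psi_t_last h t htP]
  apply c.psi_apply
  rw [c.lab_zero, c.lab_ab a b ha hb]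

theorem range_psi (h : Nat.card G = 360) (y : G) (hyH : c.stabH = Subgroup.zpowers y)
    (hym : orderOf y = 4) (t : G) (htP : t • c.P = c.Q) :
    (c.psi h).range = Subgroup.closure {c.psi h c.x1, c.psi h c.x2, c.psi h y, c.psi h t} := by
  rw [MonoidHom.range_eq_map, ← c.closure_top h y hyH hym t htP, MonoidHom.map_closure]
  congr 1
  simp [Set.image_insert_eq]

end Cfg

end Cfsg.Agent.Helper4.A6
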