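import Mathlib
import Cfsg.Agent.Helper4.A6c
import Cfsg.Agent.Helper4.Zass

set_option autoImplicit false

namespace Cfsg.Agent.Helper4.A6

open Cfsg.Agent.Helper4.Simple168e Cfsg.Agent.Helper4.Simple168f

/-- `3` is prime -/
local instance fact3''' : Fact (Nat.Prime 3) := ⟨Nat.prime_three⟩

variable {G : Type*} [Group G] [Finite G] [IsSimpleGroup G]

/-- `P` is transitive on the other Sylow subgroups -/
theorem exists_smul_PQ (h : Nat.card G = 360) (P Q : Sylow 3 G) (hQP : Q ≠ P) (R : Sylow 3 G)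
    (hR : R ≠ P) : ∃ u ∈ (P : Subgroup G), R = u • Q := by
  have hne : ∀ u : (P : Subgroup G), (u : G) • Q ≠ P := by
    intro u hu
    apply hQP
    have e : Q = (u : G)⁻¹ • P := eq_inv_smul_iff.mpr hu
    rw [e]
    exact Sylow.smul_eq_iff_mem_normalizer.mpr (Subgroup.le_normalizer (inv_mem u.2))
  let f : ↥(P : Subgroup G) → {R : Sylow 3 G // R ≠ P} := fun u => ⟨(u : G) • Q, hne u⟩
  have hinj : Function.Injective f := by
    intro u u' huu
    have h1 : (u : G) • Q = (u' : G) • Q := congrArg Subtype.val huu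
    have h2 : ((u' : G)⁻¹ * (u : G)) • Q = Q := by rw [mul_smul, h1, inv_smul_smul]
    have h3 := free_PQ h P Q hQP _ (mul_mem (inv_mem u'.2) u.2) h2
    apply Subtype.ext
    exact (inv_mul_eq_one.mp h3).symm
  have hcard : Nat.card {R : Sylow 3 G // R ≠ P} ≤ Nat.card (P : Subgroup G) := by
    rw [card_sylow3 h P]
    have e1 : Nat.card {R : Sylow 3 G // R ≠ P} = ({R : Sylow 3 G | R ≠ P}).ncard :=
      Nat.card_coe_set_eq _
    have e2 : ({R : Sylow 3 G | R ≠ P}) = Set.univ \ {P} := by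
      ext R; simp
    rw [e1, e2, Set.ncard_sdiff_singleton_of_mem (Set.mem_univ P), Set.ncard_univ, n3 h]
  have hbij := hinj.bijective_of_nat_card_le hcard
  obtain ⟨u, hu⟩ := hbij.2 ⟨R, hR⟩
  exact ⟨u, u.2, (congrArg Subtype.val hu).symm⟩

/-- the two-point stabiliser acts faithfully on `P` -/
theorem faithful_PQ (h : Nat.card G = 360) (P Q : Sylow 3 G) (hQP : Q ≠ P) (g : G)
    (hg : g ∈ stabPQ P Q) (hc : ∀ u ∈ (P : Subgroup G), g * u = u * g) : g = 1 := by
  have hall : ∀ R : Sylow 3 G, g • R = R := by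
    intro R
    by_cases hR : R = P
    · rw [hR]; exact (mem_stabPQ.mp hg).1
    · obtain ⟨u, hu, rfl⟩ := exists_smul_PQ h P Q hQP R hR
      rw [← mul_smul, hc u hu, mul_smul, (mem_stabPQ.mp hg).2]
  have hker : g ∈ (MulAction.toPermHom G (Sylow 3 G)).ker := by
    rw [MonoidHom.mem_ker]
    apply Equiv.ext
    intro R
    exact hall R
  rcases IsSimpleGroup.eq_bot_or_eq_top_of_normal (MulAction.toPermHom G (Sylow 3 G)).ker
    (MonoidHom.normal_ker _) with hb | ht
  · rw [hb] at hker; exact Subgroup.mem_bot.mp hker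
  · exfalso
    obtain ⟨g', hg'⟩ := MulAction.exists_smul_eq G Q P
    have h1 : g' ∈ (MulAction.toPermHom G (Sylow 3 G)).ker := by rw [ht]; trivial
    rw [MonoidHom.mem_ker] at h1
    have h2 : g' • Q = Q := by
      have := congrArg (fun σ : Equiv.Perm (Sylow 3 G) => σ Q) h1
      exact this
    exact hQP (h2.symm.trans hg')

/-- two independent elements of order `3` generate a Sylow `3`-subgroup -/
theorem gen_of (h : Nat.card G = 360) (P : Sylow 3 G) (x1 x2 : G) (h1 : x1 ∈ (P : Subgroup G))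
    (h2 : x2 ∈ (P : Subgroup G)) (o1 : orderOf x1 = 3) (o2 : orderOf x2 = 3)
    (hx : x2 ∉ Subgroup.zpowers x1) :
    ∀ g ∈ (P : Subgroup G), ∃ a < 3, ∃ b < 3, g = x1 ^ a * x2 ^ b := by
  have hinf : Subgroup.zpowers x1 ⊓ Subgroup.zpowers x2 = ⊥ := by
    have hc2 : Nat.card (Subgroup.zpowers x2) = 3 := by rw [Nat.card_zpowers, o2]
    have hd : Nat.card (Subgroup.zpowers x1 ⊓ Subgroup.zpowers x2 : Subgroup G) ∣ 3 := by
      have h0 := Subgroup.card_dvd_of_le
        (inf_le_right : Subgroup.zpowers x1 ⊓ Subgroup.zpowers x2 ≤ Subgroup.zpowers x2)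
      rwa [hc2] at h0
    rcases (Nat.dvd_prime Nat.prime_three).mp hd with h1 | h1
    · exact Subgroup.eq_bot_of_card_eq _ h1
    · exfalso
      apply hx
      have e1 : Subgroup.zpowers x1 ⊓ Subgroup.zpowers x2 = Subgroup.zpowers x2 :=
        Subgroup.eq_of_le_of_card_ge inf_le_right (by rw [h1, hc2])
      have hle : Subgroup.zpowers x2 ≤ Subgroup.zpowers x1 := by rw [← e1]; exact inf_le_left
      exact hle (Subgroup.mem_zpowers x2)
  let f : Fin 3 × Fin 3 → (P : Subgroup G) := fun ab =>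
    ⟨x1 ^ (ab.1 : ℕ) * x2 ^ (ab.2 : ℕ), mul_mem (pow_mem h1 _) (pow_mem h2 _)⟩
  have hinj : Function.Injective f := by
    rintro ⟨⟨a, ha⟩, ⟨b, hb⟩⟩ ⟨⟨a', ha'⟩, ⟨b', hb'⟩⟩ hab
    have e0 : x1 ^ a * x2 ^ b = x1 ^ a' * x2 ^ b' := congrArg Subtype.val hab
    have e1 : (x1 ^ a')⁻¹ * x1 ^ a = x2 ^ b' * (x2 ^ b)⁻¹ := by
      calc (x1 ^ a')⁻¹ * x1 ^ a = (x1 ^ a')⁻¹ * (x1 ^ a * x2 ^ b) * (x2 ^ b)⁻¹ := by group
        _ = (x1 ^ a')⁻¹ * (x1 ^ a' * x2 ^ b') * (x2 ^ b)⁻¹ := by rw [e0]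
        _ = x2 ^ b' * (x2 ^ b)⁻¹ := by group
    have hm1 : (x1 ^ a')⁻¹ * x1 ^ a ∈ Subgroup.zpowers x1 :=
      mul_mem (inv_mem (pow_mem (Subgroup.mem_zpowers x1) _)) (pow_mem (Subgroup.mem_zpowers x1) _)
    have hm2 : (x1 ^ a')⁻¹ * x1 ^ a ∈ Subgroup.zpowers x2 := by
      rw [e1]
      exact mul_mem (pow_mem (Subgroup.mem_zpowers x2) _)
        (inv_mem (pow_mem (Subgroup.mem_zpowers x2) _))
    have hm : (x1 ^ a')⁻¹ * x1 ^ a ∈ Subgroup.zpowers x1 ⊓ Subgroup.zpowers x2 := ⟨hm1, hm2⟩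
    rw [hinf, Subgroup.mem_bot] at hm
    have e2 : x1 ^ a = x1 ^ a' := (inv_mul_eq_one.mp hm).symm
    have e3 : x2 ^ b' = x2 ^ b := by
      rw [hm] at e1
      exact (mul_inv_eq_one.mp e1.symm)
    have e4 := pow_eq_pow_iff_modEq.mp e2
    have e5 := pow_eq_pow_iff_modEq.mp e3
    rw [o1] at e4
    rw [o2] at e5
    unfold Nat.ModEq at e4 e5
    have e6 : a = a' := by omega
    have e7 : b = b' := by omega
    subst e6 e7
    rfl
  have hbij := hinj.bijective_of_nat_card_le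
    (by rw [card_sylow3 h P, Nat.card_prod, Nat.card_fin])
  intro g hg
  obtain ⟨⟨⟨a, ha⟩, ⟨b, hb⟩⟩, hab⟩ := hbij.2 ⟨g, hg⟩
  exact ⟨a, ha, b, hb, (congrArg Subtype.val hab).symm⟩

/-- the sign of the action of any element is trivial -/
theorem sign_psi (c : Cfg G) (h : Nat.card G = 360) (g : G) :
    Equiv.Perm.sign (c.psi h g) = 1 := by
  let s : G →* ℤˣ := (Equiv.Perm.sign).comp (c.psi h)
  have hn : s.ker.Normal := inferInstance
  rcases hn.eq_bot_or_eq_top with hb | ht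
  · exfalso
    have hinj : Function.Injective s := (MonoidHom.ker_eq_bot_iff _).mp hb
    have h1 := Subgroup.card_dvd_of_injective _ hinj
    rw [h] at h1
    have h2 : Nat.card ℤˣ = 2 := by
      rw [Nat.card_eq_fintype_card]; rfl
    rw [h2] at h1
    omega
  · have h1 : g ∈ s.ker := ht ▸ Subgroup.mem_top g
    exact h1

/-- the permutation `(a, b) ↦ (a, -b)` -/
def sIIf : Fin 10 → Fin 10 := ![0, 2, 1, 3, 5, 4, 6, 8, 7, 9]

/-- the permutation `(a, b) ↦ (a, -b)` -/
def sII : Equiv.Perm (Fin 10) := ⟨sIIf, sIIf, by decide, by decide⟩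

theorem sII_eq : sII = Equiv.swap 1 2 * Equiv.swap 4 5 * Equiv.swap 7 8 := by
  apply Equiv.ext
  decide

theorem sign_sII : Equiv.Perm.sign sII = -1 := by
  rw [sII_eq]
  simp [Equiv.Perm.sign_mul]

/-- an involution of the two-point stabiliser has no fixed points on `P` -/
theorem no_fixed (h : Nat.card G = 360) (P Q : Sylow 3 G) (hQP : Q ≠ P) (s : G)
    (hs : s ∈ stabPQ P Q) (hs2 : orderOf s = 2) (w : G) (hw : w ∈ (P : Subgroup G))
    (hw1 : w ≠ 1) (hsw : s * w * s⁻¹ = w) : False := by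
  have hss : s * s = 1 := by
    have := pow_orderOf_eq_one s
    rwa [hs2, pow_two] at this
  have hsinv : s⁻¹ = s := inv_eq_of_mul_eq_one_left hss
  have hsN : s ∈ Subgroup.normalizer ((P : Subgroup G) : Set G) :=
    Sylow.smul_eq_iff_mem_normalizer.mp (mem_stabPQ.mp hs).1
  have hconj : ∀ u ∈ (P : Subgroup G), s * u * s⁻¹ ∈ (P : Subgroup G) := fun u hu =>
    (Subgroup.mem_normalizer_iff.mp hsN u).mp hu
  -- an element not centralised
  have hex : ∃ u ∈ (P : Subgroup G), s * u ≠ u * s := by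
    by_contra hcon
    push Not at hcon
    have h1 := faithful_PQ h P Q hQP s hs hcon
    rw [h1, orderOf_one] at hs2
    omega
  obtain ⟨u, hu, hsu⟩ := hex
  set v := u⁻¹ * (s * u * s⁻¹) with hv
  have hvP : v ∈ (P : Subgroup G) := mul_mem (inv_mem hu) (hconj u hu)
  have hv1 : v ≠ 1 := by
    intro h1
    apply hsu
    have e1 : s * u * s⁻¹ = u := by
      have := inv_mul_eq_one.mp h1
      exact this.symm
    calc s * u = (s * u * s⁻¹) * s := by group
      _ = u * s := by rw [e1]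
  have hsv : s * v * s⁻¹ = v⁻¹ := by
    have e1 : s * v * s⁻¹ = (s * u * s⁻¹)⁻¹ * ((s * s) * u * (s * s)⁻¹) := by rw [hv]; group
    have e2 : v⁻¹ = (s * u * s⁻¹)⁻¹ * u := by rw [hv]; group
    rw [e1, e2, hss]; group
  -- the two cyclic subgroups meet trivially
  have hinf : Subgroup.zpowers w ⊓ Subgroup.zpowers v = ⊥ := by
    rw [eq_bot_iff]
    rintro z ⟨hz1, hz2⟩
    rw [Subgroup.mem_bot]
    have hz1' : s * z * s⁻¹ = z := by
      obtain ⟨k, rfl⟩ := Subgroup.mem_zpowers_iff.mp hz1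
      rw [← conj_zpow, hsw]
    have hz2' : s * z * s⁻¹ = z⁻¹ := by
      obtain ⟨k, rfl⟩ := Subgroup.mem_zpowers_iff.mp hz2
      rw [← conj_zpow, hsv, inv_zpow]
    have hzz : z * z = 1 := by
      have e : z = z⁻¹ := hz1'.symm.trans hz2'
      calc z * z = z * z⁻¹ := by rw [← e]
        _ = 1 := mul_inv_cancel z
    have hzP : z ∈ (P : Subgroup G) := by
      obtain ⟨k, rfl⟩ := Subgroup.mem_zpowers_iff.mp hz1
      exact zpow_mem hw k
    have hz9 : z ^ 9 = 1 := by
      have h1 : (⟨z, hzP⟩ : (P : Subgroup G)) ^ Nat.card (P : Subgroup G) = 1 := pow_card_eq_one'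
      rw [card_sylow3 h P] at h1
      exact congrArg Subtype.val h1
    have hz2 : z ^ 2 = 1 := by rw [pow_two]; exact hzz
    calc z = z ^ 9 * ((z ^ 2) ^ 4)⁻¹ := by group
      _ = 1 := by rw [hz9, hz2]; simp
  have hwle : Subgroup.zpowers w ≤ (P : Subgroup G) := by rw [Subgroup.zpowers_le]; exact hw
  have hvle : Subgroup.zpowers v ≤ (P : Subgroup G) := by rw [Subgroup.zpowers_le]; exact hvP
  have hmul := card_mul_le (Subgroup.zpowers w) (Subgroup.zpowers v) (P : Subgroup G) hwle hvle hinf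
  rw [Nat.card_zpowers, Nat.card_zpowers, card_sylow3 h P] at hmul
  have hdw : orderOf w ∣ 9 := by
    have := Subgroup.card_dvd_of_le hwle
    rwa [Nat.card_zpowers, card_sylow3 h P] at this
  have hdv : orderOf v ∣ 9 := by
    have := Subgroup.card_dvd_of_le hvle
    rwa [Nat.card_zpowers, card_sylow3 h P] at this
  have how1 : orderOf w ≠ 1 := fun h1 => hw1 (orderOf_eq_one_iff.mp h1)
  have hov1 : orderOf v ≠ 1 := fun h1 => hv1 (orderOf_eq_one_iff.mp h1)
  have hwpos : 0 < orderOf w := orderOf_pos w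
  have hvpos : 0 < orderOf v := orderOf_pos v
  have how : orderOf w = 3 := by
    have hle : orderOf w ≤ 9 := Nat.le_of_dvd (by norm_num) hdw
    have hle' : orderOf v ≤ 9 := Nat.le_of_dvd (by norm_num) hdv
    generalize orderOf w = n at *
    generalize orderOf v = n' at *
    interval_cases n <;> first | omega | (interval_cases n' <;> omega)
  have hov : orderOf v = 3 := by
    have hle : orderOf w ≤ 9 := Nat.le_of_dvd (by norm_num) hdw
    have hle' : orderOf v ≤ 9 := Nat.le_of_dvd (by norm_num) hdv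
    generalize orderOf v = n' at *
    interval_cases n' <;> omega
  have hvw : v ∉ Subgroup.zpowers w := by
    intro hmem
    have : v ∈ Subgroup.zpowers w ⊓ Subgroup.zpowers v := ⟨hmem, Subgroup.mem_zpowers v⟩
    rw [hinf, Subgroup.mem_bot] at this
    exact hv1 this
  let c : Cfg G :=
    { P := P, Q := Q, x1 := w, x2 := v, hQP := hQP, h1 := hw, h2 := hvP
      o1 := by rw [← how]; exact pow_orderOf_eq_one w
      o2 := by rw [← hov]; exact pow_orderOf_eq_one v
      gen := gen_of h P w v hw hvP how hov hvw }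
  have hx1 : s * c.x1 * s⁻¹ = c.elt 1 0 := by
    show s * w * s⁻¹ = w ^ 1 * v ^ 0
    rw [hsw]; simp
  have hx2 : s * c.x2 * s⁻¹ = c.elt 0 2 := by
    show s * v * s⁻¹ = w ^ 0 * v ^ 2
    rw [hsv, pow_zero, one_mul]
    have hv3 : v ^ 3 = 1 := by rw [← hov]; exact pow_orderOf_eq_one v
    calc v⁻¹ = v⁻¹ * v ^ 3 := by rw [hv3, mul_one]
      _ = v ^ 2 := by group
  have hpsi : c.psi h s = sII := by
    apply Equiv.ext
    rintro ⟨i, hi⟩
    by_cases hi9 : i < 9
    · have e := c.psi_H h s hs 1 0 0 2 hx1 hx2 (i / 3) (i % 3) (by omega) (by omega)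
      have e' : (⟨3 * (i / 3) + i % 3, by omega⟩ : Fin 10) = ⟨i, hi⟩ := by
        apply Fin.ext; show 3 * (i / 3) + i % 3 = i; omega
      rw [e'] at e
      rw [e]
      interval_cases i <;> rfl
    · have hi' : i = 9 := by omega
      subst hi'
      rw [c.psi_H_last h s hs]; rfl
  have h1 := sign_psi c h s
  rw [hpsi, sign_sII] at h1
  exact absurd h1 (by decide)

end Cfsg.Agent.Helper4.A6
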