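import Mathlib
import Cfsg.Agent.Helper4.A6d

set_option autoImplicit false

namespace Cfsg.Agent.Helper4.A6

open Cfsg.Agent.Helper4.Simple168e Cfsg.Agent.Helper4.Simple168f

/-- `3` is prime -/
local instance fact3'''' : Fact (Nat.Prime 3) := ⟨Nat.prime_three⟩

variable {G : Type*} [Group G] [Finite G] [IsSimpleGroup G]

/-- an involution of the two-point stabiliser inverts `P` -/
theorem inverts (h : Nat.card G = 360) (P Q : Sylow 3 G) (hQP : Q ≠ P) (s : G)
    (hs : s ∈ stabPQ P Q) (hs2 : orderOf s = 2) (u : G) (hu : u ∈ (P : Subgroup G)) :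
    s * u * s⁻¹ = u⁻¹ := by
  have hss : s * s = 1 := by
    have := pow_orderOf_eq_one s
    rwa [hs2, pow_two] at this
  have hsN : s ∈ Subgroup.normalizer ((P : Subgroup G) : Set G) :=
    Sylow.smul_eq_iff_mem_normalizer.mp (mem_stabPQ.mp hs).1
  have hconj : ∀ u ∈ (P : Subgroup G), s * u * s⁻¹ ∈ (P : Subgroup G) := fun u hu =>
    (Subgroup.mem_normalizer_iff.mp hsN u).mp hu
  have hwP : u * (s * u * s⁻¹) ∈ (P : Subgroup G) := mul_mem hu (hconj u hu)
  have hsw : s * (u * (s * u * s⁻¹)) * s⁻¹ = u * (s * u * s⁻¹) := by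
    have e1 : s * (u * (s * u * s⁻¹)) * s⁻¹ = (s * u * s⁻¹) * ((s * s) * u * (s * s)⁻¹) := by
      group
    rw [e1, hss, one_mul, inv_one, mul_one]
    exact sylow3_comm h P _ _ (hconj u hu) hu
  by_contra hne
  have hw1 : u * (s * u * s⁻¹) ≠ 1 := by
    intro h1
    exact hne (eq_inv_of_mul_eq_one_right h1)
  exact no_fixed h P Q hQP s hs hs2 _ hwP hw1 hsw

/-- the two-point stabiliser has an element of order `4` -/
theorem exists_order4 (h : Nat.card G = 360) (P Q : Sylow 3 G) (hQP : Q ≠ P) :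
    ∃ y ∈ stabPQ P Q, orderOf y = 4 := by
  by_contra hcon
  push Not at hcon
  have hcard := card_stabPQ h P Q hQP
  have hord : ∀ g ∈ stabPQ P Q, g ≠ 1 → orderOf g = 2 := by
    intro g hg hg1
    have hd : orderOf g ∣ 4 := by
      have := Subgroup.orderOf_dvd_natCard _ hg
      rwa [hcard] at this
    have hle : orderOf g ≤ 4 := Nat.le_of_dvd (by norm_num) hd
    have h1 : orderOf g ≠ 1 := fun h1 => hg1 (orderOf_eq_one_iff.mp h1)
    have h4 : orderOf g ≠ 4 := hcon g hg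
    have hpos := orderOf_pos g
    generalize orderOf g = n at *
    interval_cases n <;> omega
  have : Fact (Nat.Prime 2) := ⟨Nat.prime_two⟩
  obtain ⟨s', hs'⟩ := exists_prime_orderOf_dvd_card' (G := stabPQ P Q) 2
    (by rw [hcard]; norm_num)
  have hs2 : orderOf (s' : G) = 2 := by rw [Subgroup.orderOf_coe]; exact hs'
  have hex : ∃ g ∈ stabPQ P Q, g ∉ Subgroup.zpowers (s' : G) := by
    by_contra hall
    push Not at hall
    have hle : stabPQ P Q ≤ Subgroup.zpowers (s' : G) := hall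
    have h1 := Subgroup.card_le_of_le hle
    rw [hcard, Nat.card_zpowers, hs2] at h1
    omega
  obtain ⟨g, hg, hgs⟩ := hex
  have hg1 : g ≠ 1 := fun h1 => hgs (h1 ▸ one_mem _)
  have hg2 := hord g hg hg1
  have hc : ∀ u ∈ (P : Subgroup G), ((s' : G) * g) * u = u * ((s' : G) * g) := by
    intro u hu
    have e1 := inverts h P Q hQP g hg hg2 u hu
    have e2 := inverts h P Q hQP s' s'.2 hs2 u⁻¹ (inv_mem hu)
    rw [inv_inv] at e2
    calc ((s' : G) * g) * u
        = (s' : G) * (g * u * g⁻¹) * (s' : G)⁻¹ * ((s' : G) * g) := by group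
      _ = u * ((s' : G) * g) := by rw [e1, e2]
  have h1 := faithful_PQ h P Q hQP _ (mul_mem s'.2 hg) hc
  apply hgs
  have e : g = (s' : G)⁻¹ := eq_inv_of_mul_eq_one_right h1
  rw [e]; exact inv_mem (Subgroup.mem_zpowers _)

/-- a configuration in normal form -/
theorem exists_cfg (h : Nat.card G = 360) :
    ∃ c : Cfg G, ∃ y : G, orderOf y = 4 ∧ c.stabH = Subgroup.zpowers y ∧
      y * c.x1 * y⁻¹ = c.elt 0 1 ∧ y * c.x2 * y⁻¹ = c.elt 2 0 := by
  obtain ⟨P⟩ : Nonempty (Sylow 3 G) := inferInstance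
  have hex : ∃ Q : Sylow 3 G, Q ≠ P := by
    by_contra hcon
    push Not at hcon
    have hsub : Subsingleton (Sylow 3 G) := ⟨fun a b => by rw [hcon a, hcon b]⟩
    have h1 : Nat.card (Sylow 3 G) ≤ 1 := Finite.card_le_one_iff_subsingleton.mpr hsub
    rw [n3 h] at h1
    omega
  obtain ⟨Q, hQP⟩ := hex
  obtain ⟨y, hyH, hy4⟩ := exists_order4 h P Q hQP
  have hy2 : orderOf (y ^ 2) = 2 := by
    rw [orderOf_pow' y (by norm_num : 2 ≠ 0), hy4]; rfl
  have hinv : ∀ u ∈ (P : Subgroup G), y ^ 2 * u * (y ^ 2)⁻¹ = u⁻¹ := fun u hu =>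
    inverts h P Q hQP (y ^ 2) (pow_mem hyH 2) hy2 u hu
  obtain ⟨x', hx'⟩ := exists_prime_orderOf_dvd_card' (G := (P : Subgroup G)) 3
    (by rw [card_sylow3 h P]; norm_num)
  have hx3 : orderOf (x' : G) = 3 := by rw [Subgroup.orderOf_coe]; exact hx'
  have hx1P : (x' : G) ∈ (P : Subgroup G) := x'.2
  have hyN : y ∈ Subgroup.normalizer ((P : Subgroup G) : Set G) :=
    Sylow.smul_eq_iff_mem_normalizer.mp (mem_stabPQ.mp hyH).1
  have hx2P : y * (x' : G) * y⁻¹ ∈ (P : Subgroup G) :=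
    (Subgroup.mem_normalizer_iff.mp hyN _).mp hx1P
  have hx23 : orderOf (y * (x' : G) * y⁻¹) = 3 := by
    have e := orderOf_injective (MulAut.conj y).toMonoidHom (MulAut.conj y).injective (x' : G)
    rw [hx3] at e
    exact e
  have hx13 : (x' : G) ^ 3 = 1 := by
    have h0 := pow_orderOf_eq_one (x' : G)
    rwa [hx3] at h0
  have hx23' : (y * (x' : G) * y⁻¹) ^ 3 = 1 := by
    have h0 := pow_orderOf_eq_one (y * (x' : G) * y⁻¹)
    rwa [hx23] at h0
  have hx2n : y * (x' : G) * y⁻¹ ∉ Subgroup.zpowers (x' : G) := by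
    intro hmem
    obtain ⟨k, hk, hk2⟩ := exists_pow_lt (x' : G) 3 hx3 (by norm_num) _ hmem
    have e1 := Zass.conj_pow_exp y (x' : G) k hk2.symm 2
    rw [hinv _ hx1P] at e1
    have e2 : (x' : G) ^ (k ^ 2 + 1) = 1 := by rw [pow_succ, ← e1, inv_mul_cancel]
    have e3 := orderOf_dvd_of_pow_eq_one e2
    rw [hx3] at e3
    interval_cases k <;> norm_num at e3
  let c : Cfg G :=
    { P := P, Q := Q, x1 := (x' : G), x2 := y * (x' : G) * y⁻¹, hQP := hQP, h1 := hx1P
      h2 := hx2P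
      o1 := hx13
      o2 := hx23'
      gen := gen_of h P _ _ hx1P hx2P hx3 hx23 hx2n }
  refine ⟨c, y, hy4, ?_, ?_, ?_⟩
  · symm
    apply Subgroup.eq_of_le_of_card_ge
    · rw [Subgroup.zpowers_le]; exact hyH
    · rw [Nat.card_zpowers, hy4]; exact (c.card_stabH h).le
  · show y * (x' : G) * y⁻¹ = (x' : G) ^ 0 * (y * (x' : G) * y⁻¹) ^ 1
    rw [pow_zero, one_mul, pow_one]
  · show y * (y * (x' : G) * y⁻¹) * y⁻¹ = (x' : G) ^ 2 * (y * (x' : G) * y⁻¹) ^ 0
    rw [pow_zero, mul_one]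
    have e1 : y * (y * (x' : G) * y⁻¹) * y⁻¹ = y ^ 2 * (x' : G) * (y ^ 2)⁻¹ := by
      rw [pow_two, mul_inv_rev]; simp only [mul_assoc]
    rw [e1, hinv _ hx1P]
    calc (x' : G)⁻¹ = (x' : G)⁻¹ * (x' : G) ^ 3 := by rw [hx13, mul_one]
      _ = (x' : G) ^ 2 := by group

end Cfsg.Agent.Helper4.A6
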