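import Mathlib
import Cfsg.Agent.Helper4.A6e

set_option autoImplicit false

namespace Cfsg.Agent.Helper4.A6

open Cfsg.Agent.Helper4.Simple168e Cfsg.Agent.Helper4.Simple168f

/-- `3` is prime -/
local instance fact3f : Fact (Nat.Prime 3) := ⟨Nat.prime_three⟩

/-- translation by `(a, b)` on the plane over the field with three elements (`9` is `∞`) -/
def tr (a b : ℕ) (z : Fin 10) : Fin 10 :=
  if h : z.val < 9 then ⟨3 * ((a + z.val / 3) % 3) + (b + z.val % 3) % 3, by omega⟩ else z

/-- the map `(a, b) ↦ (-b, a)` -/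
def yf (z : Fin 10) : Fin 10 :=
  if h : z.val < 9 then ⟨3 * ((2 * (z.val % 3)) % 3) + z.val / 3, by omega⟩ else z

/-- powers of `yf` -/
def ypow (l : ℕ) (z : Fin 10) : Fin 10 :=
  match l % 4 with
  | 0 => z
  | 1 => yf z
  | 2 => yf (yf z)
  | _ => yf (yf (yf z))

/-- translation by `(1, 0)` -/
def x1Perm : Equiv.Perm (Fin 10) := ⟨tr 1 0, tr 2 0, by decide, by decide⟩

/-- translation by `(0, 1)` -/
def x2Perm : Equiv.Perm (Fin 10) := ⟨tr 0 1, tr 0 2, by decide, by decide⟩

/-- the rotation -/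
def yPerm : Equiv.Perm (Fin 10) := ⟨yf, ypow 3, by decide, by decide⟩

theorem x1Perm_zero : x1Perm 0 = 3 := by decide

theorem yPerm_pow4 : yPerm ^ 4 = 1 := by
  apply Equiv.ext
  decide

theorem yPerm_pow (l : ℕ) (z : Fin 10) : (yPerm ^ l) z = ypow l z := by
  rw [pow_eq_pow_mod l yPerm_pow4]
  unfold ypow
  have hl : l % 4 < 4 := Nat.mod_lt _ (by norm_num)
  generalize l % 4 = r at *
  interval_cases r <;> rfl

theorem ypow_mod (e : ℕ) (z : Fin 10) : ypow (e % 4) z = ypow e z := by
  unfold ypow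
  rw [Nat.mod_mod]

theorem ypow_zero (z : Fin 10) : ypow 0 z = z := rfl

theorem ypow_add (a b : ℕ) (z : Fin 10) : ypow a (ypow b z) = ypow (a + b) z := by
  rw [← yPerm_pow, ← yPerm_pow, ← yPerm_pow, pow_add, Equiv.Perm.mul_apply]

/-- a map commuting suitably with `yPerm`, given by two of its values -/
def candF (j : ℕ) (a b : Fin 10) (z : Fin 10) : Fin 10 :=
  match z.val with
  | 0 => 9
  | 1 => ypow (j * 1 % 4) a
  | 2 => ypow (j * 3 % 4) a
  | 3 => a
  | 4 => b
  | 5 => ypow (j * 3 % 4) b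
  | 6 => ypow (j * 2 % 4) a
  | 7 => ypow (j * 1 % 4) b
  | 8 => ypow (j * 2 % 4) b
  | _ => 0

/-- the relation check -/
def relOK (j : ℕ) (a b : Fin 10) : Prop :=
  ∃ (a' : Fin 3) (b' : Fin 3) (l : Fin 4), ∀ z : Fin 10,
    candF j a b (tr 1 0 (candF j a b z)) =
      tr (a.val / 3) (a.val % 3) (candF j a b (tr a' b' (ypow l z)))

instance (j : ℕ) (a b : Fin 10) : Decidable (relOK j a b) := by
  unfold relOK; infer_instance

/-- the map `z ↦ -1 / z` -/
def sFun (z : Fin 10) : Fin 10 := candF 3 6 5 z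

/-- the permutation `z ↦ -1 / z` -/
def sPerm : Equiv.Perm (Fin 10) := ⟨sFun, sFun, by decide, by decide⟩

/-- the model group -/
def model : Subgroup (Equiv.Perm (Fin 10)) := Subgroup.closure {x1Perm, x2Perm, yPerm, sPerm}

/-- the conclusion of the case check -/
def concl (j : ℕ) (a b : Fin 10) : Prop :=
  ∃ e : Fin 4, ∀ z : Fin 10, candF j a b z = sFun (ypow e z)

instance (j : ℕ) (a b : Fin 10) : Decidable (concl j a b) := by
  unfold concl; infer_instance

set_option maxRecDepth 100000 in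
theorem cand_cases_fin : ∀ (j : Fin 4) (a b : Fin 10), a ≠ 9 → relOK j a b → concl j a b := by
  decide +kernel

theorem cand_cases (j : ℕ) (hj : j < 4) (a b : Fin 10) (ha : a ≠ 9) (h : relOK j a b) :
    concl j a b := cand_cases_fin ⟨j, hj⟩ a b ha h

theorem cand_eq (σ : Fin 10 → Fin 10) (j : ℕ) (h0 : σ 0 = 9) (hinf : σ 9 = 0)
    (hstep : ∀ e z, σ (ypow e z) = ypow (j * e) (σ z)) :
    ∀ z, σ z = candF j (σ 3) (σ 4) z := by
  intro z
  fin_cases z
  · exact h0
  · exact (hstep 1 3).trans (ypow_mod _ _).symm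
  · exact (hstep 3 3).trans (ypow_mod _ _).symm
  · rfl
  · rfl
  · exact (hstep 3 4).trans (ypow_mod _ _).symm
  · exact (hstep 2 3).trans (ypow_mod _ _).symm
  · exact (hstep 1 4).trans (ypow_mod _ _).symm
  · exact (hstep 2 4).trans (ypow_mod _ _).symm
  · exact hinf

variable {G : Type*} [Group G] [Finite G] [IsSimpleGroup G]

theorem psi_elt (c : Cfg G) (h : Nat.card G = 360) (a b : ℕ) (z : Fin 10) :
    c.psi h (c.elt a b) z = tr a b z := by
  obtain ⟨i, hi⟩ := z
  by_cases hi9 : i < 9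
  · have e := c.psi_P h (c.elt a b) a b rfl (i / 3) (i % 3) (by omega) (by omega)
    have e' : (⟨3 * (i / 3) + i % 3, by omega⟩ : Fin 10) = ⟨i, hi⟩ := by
      apply Fin.ext; show 3 * (i / 3) + i % 3 = i; omega
    rw [e'] at e
    rw [e]
    unfold tr
    rw [dif_pos hi9]
  · have hi' : i = 9 := by omega
    subst hi'
    rw [c.psi_P_last h _ (c.elt_mem a b)]
    rfl

theorem equiv_model (h : Nat.card G = 360) : Nonempty (G ≃* model) := by
  obtain ⟨c, y, hym, hyH, hy1, hy2⟩ := exists_cfg h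
  have hyS : y ∈ c.stabH := by rw [hyH]; exact Subgroup.mem_zpowers y
  obtain ⟨t, htP, htQ⟩ := c.exists_t h
  have hX1 : c.psi h c.x1 = x1Perm := by
    apply Equiv.ext
    intro z
    have e : c.x1 = c.elt 1 0 := by unfold Cfg.elt; simp
    rw [e, psi_elt c h 1 0 z]; rfl
  have hX2 : c.psi h c.x2 = x2Perm := by
    apply Equiv.ext
    intro z
    have e : c.x2 = c.elt 0 1 := by unfold Cfg.elt; simp
    rw [e, psi_elt c h 0 1 z]; rfl
  have hY : c.psi h y = yPerm := by
    apply Equiv.ext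
    rintro ⟨i, hi⟩
    by_cases hi9 : i < 9
    · have e := c.psi_H h y hyS 0 1 2 0 hy1 hy2 (i / 3) (i % 3) (by omega) (by omega)
      have e' : (⟨3 * (i / 3) + i % 3, by omega⟩ : Fin 10) = ⟨i, hi⟩ := by
        apply Fin.ext; show 3 * (i / 3) + i % 3 = i; omega
      rw [e'] at e
      rw [e]
      show _ = yf ⟨i, hi⟩
      unfold yf
      rw [dif_pos hi9]
      apply Fin.ext
      show 3 * ((0 * (i / 3) + 2 * (i % 3)) % 3) + (1 * (i / 3) + 0 * (i % 3)) % 3 =
        3 * ((2 * (i % 3)) % 3) + i / 3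
      interval_cases i <;> rfl
    · have hi' : i = 9 := by omega
      subst hi'
      rw [c.psi_H_last h y hyS]; rfl
  obtain ⟨j, hj, hr2⟩ := c.psi_rel2 h y hyH hym t htP htQ
  obtain ⟨a, ha, b, hb, a', ha', b', hb', l, hl, hab, hr1⟩ := c.psi_rel1 h y hyH hym t htP htQ
  have hrange := c.range_psi h y hyH hym t htP
  have hinf : c.psi h t 9 = 0 := c.psi_t_last h t htP
  have h0 : c.psi h t 0 = 9 := c.psi_t_zero h t htQ
  rw [hY] at hr2
  rw [hX1, hY] at hr1
  rw [hX1, hX2, hY] at hrange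
  rw [hX1] at hab
  simp only [psi_elt] at hr1
  generalize c.psi h t = σ at hr2 hr1 hrange hinf h0 hab
  have hstep1 : ∀ z, σ (ypow 1 z) = ypow j (σ z) := fun z =>
    (hr2 z).trans (yPerm_pow j (σ z))
  have hstep : ∀ e z, σ (ypow e z) = ypow (j * e) (σ z) := by
    intro e
    induction e with
    | zero => intro z; rw [ypow_zero, Nat.mul_zero, ypow_zero]
    | succ n ih =>
      intro z
      calc σ (ypow (n + 1) z) = σ (ypow 1 (ypow n z)) := by rw [ypow_add, Nat.add_comm 1 n]
        _ = ypow j (σ (ypow n z)) := hstep1 _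
        _ = ypow j (ypow (j * n) (σ z)) := by rw [ih]
        _ = ypow (j * (n + 1)) (σ z) := by
          rw [ypow_add]; congr 1; ring
  have hcand : ∀ z, σ z = candF j (σ 3) (σ 4) z := cand_eq σ j h0 hinf hstep
  have hfun : (σ : Fin 10 → Fin 10) = candF j (σ 3) (σ 4) := funext hcand
  have hA : σ 3 = ⟨3 * a + b, by omega⟩ := by
    rw [← x1Perm_zero]; exact hab
  have hA1 : (σ 3).val / 3 = a := by rw [hA]; show (3 * a + b) / 3 = a; omega
  have hA2 : (σ 3).val % 3 = b := by rw [hA]; show (3 * a + b) % 3 = b; omega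
  have ha9 : σ 3 ≠ 9 := by
    intro hc
    have h1 := congrArg Fin.val hc
    rw [hA] at h1
    have h2 : 3 * a + b = 9 := h1
    omega
  have hrel : relOK j (σ 3) (σ 4) := by
    unfold relOK
    rw [← hfun, hA1, hA2]
    refine ⟨⟨a', ha'⟩, ⟨b', hb'⟩, ⟨l, hl⟩, fun z => ?_⟩
    have h1 := hr1 z
    rw [yPerm_pow] at h1
    exact h1
  obtain ⟨e, he⟩ := cand_cases j hj (σ 3) (σ 4) ha9 hrel
  have hσ : σ = sPerm * yPerm ^ (e : ℕ) := Equiv.ext fun z => by
    rw [hcand z, Equiv.Perm.mul_apply, yPerm_pow]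
    exact he z
  have hcl : Subgroup.closure ({x1Perm, x2Perm, yPerm, σ} : Set (Equiv.Perm (Fin 10))) =
      model := by
    rw [hσ]
    apply le_antisymm
    · rw [Subgroup.closure_le]
      rintro g (rfl | rfl | rfl | rfl)
      · exact Subgroup.subset_closure (by simp)
      · exact Subgroup.subset_closure (by simp)
      · exact Subgroup.subset_closure (by simp)
      · exact mul_mem (Subgroup.subset_closure (by simp))
          (pow_mem (Subgroup.subset_closure (by simp)) _)
    · unfold model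
      rw [Subgroup.closure_le]
      rintro g (rfl | rfl | rfl | rfl)
      · exact Subgroup.subset_closure (by simp)
      · exact Subgroup.subset_closure (by simp)
      · exact Subgroup.subset_closure (by simp)
      · have key : (sPerm * yPerm ^ (e : ℕ)) * (yPerm ^ (e : ℕ))⁻¹ ∈
            Subgroup.closure ({x1Perm, x2Perm, yPerm, sPerm * yPerm ^ (e : ℕ)} :
              Set (Equiv.Perm (Fin 10))) :=
          mul_mem (Subgroup.subset_closure (by simp))
            (inv_mem (pow_mem (Subgroup.subset_closure (by simp)) _))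
        rwa [mul_inv_cancel_right] at key
  exact ⟨(MonoidHom.ofInjective (c.psi_inj h)).trans
    (MulEquiv.subgroupCongr (hrange.trans hcl))⟩

/-- any two simple groups of order 360 are isomorphic -/
theorem equiv_of_card {G' : Type*} [Group G'] [Finite G'] [IsSimpleGroup G']
    (h : Nat.card G = 360) (h' : Nat.card G' = 360) : Nonempty (G ≃* G') := by
  obtain ⟨e⟩ := equiv_model h
  obtain ⟨e'⟩ := equiv_model h'
  exact ⟨e.trans e'.symm⟩

end Cfsg.Agent.Helper4.A6
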