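import Mathlib

set_option autoImplicit false

namespace Cfsg.Agent.Helper4

open Subgroup
open scoped Pointwise

/-- A maximal subgroup containing a normal subgroup `N` maps to a maximal subgroup of `G ⧸ N`. -/
theorem isCoatom_map_mk' {G : Type*} [Group G] (N : Subgroup G) [N.Normal] (M : Subgroup G)
    (hM : IsCoatom M) (hNM : N ≤ M) : IsCoatom (M.map (QuotientGroup.mk' N)) := by
  have hcm : (M.map (QuotientGroup.mk' N)).comap (QuotientGroup.mk' N) = M := by
    rw [Subgroup.comap_map_eq, QuotientGroup.ker_mk', sup_of_le_left hNM]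
  refine ⟨?_, fun B hB => ?_⟩
  · intro h
    rw [h, Subgroup.comap_top] at hcm
    exact hM.1 hcm.symm
  · have h1 : M ≤ B.comap (QuotientGroup.mk' N) := by
      rw [← hcm]; exact Subgroup.comap_mono hB.le
    have h2 : M ≠ B.comap (QuotientGroup.mk' N) := by
      intro h
      have : B = M.map (QuotientGroup.mk' N) := by
        rw [h, Subgroup.map_comap_eq_self_of_surjective (QuotientGroup.mk'_surjective N)]
      exact hB.ne this.symm
    have h3 := hM.2 _ (lt_of_le_of_ne h1 h2)
    rw [← Subgroup.map_comap_eq_self_of_surjective (QuotientGroup.mk'_surjective N) B, h3,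
      Subgroup.map_top_of_surjective _ (QuotientGroup.mk'_surjective N)]

/-- If `N` is normal of prime order and not contained in the maximal subgroup `M`, then `M` has
index `|N|`. -/
theorem index_of_coatom_of_not_le {G : Type*} [Group G] [Finite G] (N : Subgroup G) [N.Normal]
    (hp : (Nat.card N).Prime) (M : Subgroup G) (hM : IsCoatom M) (hNM : ¬ N ≤ M) :
    M.index = Nat.card N := by
  have hsup : M ⊔ N = ⊤ := by
    apply hM.2
    refine lt_of_le_of_ne le_sup_left ?_
    intro h
    apply hNM
    rw [h]
    exact le_sup_right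
  have hinf : M ⊓ N = ⊥ := by
    have hdvd : Nat.card (M ⊓ N : Subgroup G) ∣ Nat.card N := Subgroup.card_dvd_of_le inf_le_right
    rcases (Nat.dvd_prime hp).mp hdvd with h | h
    · exact (Subgroup.card_eq_one).mp h
    · exfalso
      apply hNM
      have : M ⊓ N = N := Subgroup.eq_of_le_of_card_ge inf_le_right (le_of_eq h.symm)
      rw [← this]
      exact inf_le_left
  have hmul : (M : Set G) * (N : Set G) = Set.univ := by
    rw [← Subgroup.mul_normal, hsup]; rfl
  have hc : IsComplement' M N :=
    Subgroup.isComplement'_of_disjoint_and_mul_eq_univ (disjoint_iff.mpr hinf) hmul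
  exact hc.symm.index_eq_card

end Cfsg.Agent.Helper4
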