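import Mathlib
import Cfsg.Agent.Helper4.Sharp2

set_option autoImplicit false

namespace Cfsg.Agent.Helper4

open MulAction

/-- There is no sharply 6-transitive action on 13 points (Sylow 13 counting). -/
theorem no_sharp6_13 {G α : Type*} [Group G] [MulAction G α] [Finite G] [Finite α]
    [IsMultiplyPretransitive G α 6] (hsharp : ∀ x : Fin 6 ↪ α, stabilizer G x = ⊥)
    (h13 : Nat.card α = 13) : False := by
  have hG : Nat.card G = 1235520 := by
    rw [sharp_card_group hsharp (by omega), h13]; rfl
  haveI : Fact (Nat.Prime 13) := ⟨by norm_num⟩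
  obtain ⟨P⟩ : Nonempty (Sylow 13 G) := inferInstance
  have hP : Nat.card (P : Subgroup G) = 13 :=
    sylow_card_prime P (m := 95040) (by rw [hG]) (by norm_num)
  obtain ⟨m, hm, hN⟩ := card_normalizer_of_prime_degree
    (faithful_of_sharp hsharp (by omega)) h13 (P : Subgroup G) hP
  have h1 : Nat.card (Sylow 13 G) ≡ 1 [MOD 13] := card_sylow_modEq_one 13 G
  have h2 : Nat.card (Sylow 13 G) = (Subgroup.normalizer ((P : Subgroup G) : Set G)).index :=
    Sylow.card_eq_index_normalizer P
  have h3 := (Subgroup.normalizer ((P : Subgroup G) : Set G)).card_mul_index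
  rw [hN, hG, ← h2] at h3
  have hm' : m ∣ 12 := hm
  have hmle : m ≤ 12 := Nat.le_of_dvd (by norm_num) hm'
  unfold Nat.ModEq at h1
  generalize Nat.card (Sylow 13 G) = n at h1 h3
  interval_cases m <;> omega

/-- For `k ≥ 6`, a sharply `k`-transitive action has degree `k`, `k+1` or `k+2`. -/
theorem sharp6_card.{u, v} (k : ℕ) (hk : 6 ≤ k) : ∀ (G : Type u) (α : Type v) [Group G]
    [MulAction G α] [Finite G] [Finite α] [IsMultiplyPretransitive G α k],
    (∀ x : Fin k ↪ α, stabilizer G x = ⊥) → k ≤ Nat.card α →
    Nat.card α = k ∨ Nat.card α = k + 1 ∨ Nat.card α = k + 2 := by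
  induction k, hk using Nat.le_induction with
  | base =>
    intro G α _ _ _ _ _ hsharp hn
    haveI : IsPretransitive G α := sharp_pretransitive (k := 6) (by norm_num) hn
    obtain ⟨a⟩ : Nonempty α := (Nat.card_pos_iff.mp (by omega)).1
    obtain ⟨h1, h2⟩ := sharp_ofStabilizer hsharp a
    haveI := h1
    have hc := SubMulAction.nat_card_ofStabilizer_add_one_eq G a
    have := sharp5_card h2 (by omega)
    rcases this with h | h | h | h
    · left; omega
    · right; left; omega
    · right; right; omega
    · exfalso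
      exact no_sharp6_13 hsharp (by omega)
  | succ k hk ih =>
    intro G α _ _ _ _ _ hsharp hn
    haveI : IsPretransitive G α := sharp_pretransitive (k := k + 1) (by omega) hn
    obtain ⟨a⟩ : Nonempty α := (Nat.card_pos_iff.mp (by omega)).1
    obtain ⟨h1, h2⟩ := sharp_ofStabilizer hsharp a
    haveI := h1
    have hc := SubMulAction.nat_card_ofStabilizer_add_one_eq G a
    have := ih (stabilizer G a) (SubMulAction.ofStabilizer G a) h2 (by omega)
    omega

end Cfsg.Agent.Helper4
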