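import Mathlib
import Cfsg.Agent.Helper4.Sharp3

set_option autoImplicit false

namespace Cfsg.Agent.Helper4

open MulAction

theorem sup_stabilizer_eq_top {G α : Type*} [Group G] [MulAction G α] (N : Subgroup G)
    [IsPretransitive N α] (a : α) : stabilizer G a ⊔ N = ⊤ := by
  rw [eq_top_iff]
  intro g _
  obtain ⟨n, hn⟩ := exists_smul_eq N a (g • a)
  have hn' : (n : G) • a = g • a := hn
  have h1 : (n : G)⁻¹ * g ∈ stabilizer G a := by
    rw [mem_stabilizer_iff, mul_smul, ← hn', inv_smul_smul]
  have h2 : g = (n : G) * ((n : G)⁻¹ * g) := by group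
  rw [h2]
  exact Subgroup.mul_mem _ (Subgroup.mem_sup_right n.2) (Subgroup.mem_sup_left h1)

theorem fixedPoints_ne_univ {G α : Type*} [Group G] [MulAction G α]
    (hfaith : ∀ g : G, (∀ a : α, g • a = a) → g = 1) (N : Subgroup G) (hbot : N ≠ ⊥) :
    fixedPoints N α ≠ Set.univ := by
  intro hfp
  apply hbot
  rw [eq_bot_iff]
  intro n hn
  rw [Subgroup.mem_bot]
  apply hfaith
  intro a
  have h1 : a ∈ fixedPoints N α := hfp ▸ Set.mem_univ a
  exact h1 ⟨n, hn⟩

/-- A sharply 4-transitive action on 11 points: the group is simple of order 7920. -/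
theorem sharp4_11_simple {G α : Type*} [Group G] [MulAction G α] [Finite G] [Finite α]
    [IsMultiplyPretransitive G α 4] (hsharp : ∀ x : Fin 4 ↪ α, stabilizer G x = ⊥)
    (h11 : Nat.card α = 11) : IsSimpleGroup G ∧ Nat.card G = 7920 := by
  have hG : Nat.card G = 7920 := by
    rw [sharp_card_group hsharp (by omega), h11]; rfl
  refine ⟨?_, hG⟩
  have hfaith := faithful_of_sharp hsharp (by omega : 4 ≤ Nat.card α)
  haveI : Fact (Nat.Prime 11) := ⟨by norm_num⟩
  haveI h2 : IsMultiplyPretransitive G α 2 :=
    isMultiplyPretransitive_of_le (n := 4) (by norm_num) (by omega)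
  haveI : IsPreprimitive G α := isPreprimitive_of_is_two_pretransitive h2
  haveI : IsPretransitive G α := sharp_pretransitive (k := 4) (by norm_num) (by omega)
  haveI : Nontrivial G := by
    rw [← Finite.one_lt_card_iff_nontrivial]; omega
  refine IsSimpleGroup.mk ?_
  intro N hN
  by_cases hbot : N = ⊥
  · exact Or.inl hbot
  right
  haveI := hN
  have hfix : fixedPoints N α ≠ Set.univ := fixedPoints_ne_univ hfaith N hbot
  haveI hNt : IsPretransitive N α := IsQuasiPreprimitive.isPretransitive_of_normal hfix
  obtain ⟨a⟩ : Nonempty α := (Nat.card_pos_iff.mp (by omega)).1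
  have h11N : 11 ∣ Nat.card N := by
    have h1 := index_stabilizer_of_transitive N a
    rw [h11] at h1
    rw [← h1]
    exact Subgroup.index_dvd_card _
  obtain ⟨P⟩ : Nonempty (Sylow 11 G) := inferInstance
  have hP : Nat.card (P : Subgroup G) = 11 :=
    sylow_card_prime P (m := 720) (by rw [hG]) (by norm_num)
  have hPN : (P : Subgroup G) ≤ N := by
    apply sylow_le_normal_of_not_dvd_index P N
    intro hdiv
    have h1 := N.card_mul_index
    rw [hG] at h1
    obtain ⟨u, hu⟩ := h11N
    obtain ⟨v, hv⟩ := hdiv
    rw [hu, hv] at h1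
    have h3 : 121 ∣ 7920 := ⟨u * v, by rw [← h1]; ring⟩
    norm_num at h3
  obtain ⟨m, hm, hNP⟩ := card_normalizer_of_prime_degree hfaith h11 (P : Subgroup G) hP
  have hm5 : m = 5 := by
    have h1 : Nat.card (Sylow 11 G) ≡ 1 [MOD 11] := card_sylow_modEq_one 11 G
    have h2 : Nat.card (Sylow 11 G) =
        (Subgroup.normalizer ((P : Subgroup G) : Set G)).index :=
      Sylow.card_eq_index_normalizer P
    have h3 := (Subgroup.normalizer ((P : Subgroup G) : Set G)).card_mul_index
    rw [hNP, hG, ← h2] at h3
    have hm' : m ∣ 10 := hm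
    have hmle : m ≤ 10 := Nat.le_of_dvd (by norm_num) hm'
    unfold Nat.ModEq at h1
    generalize Nat.card (Sylow 11 G) = n at h1 h3
    interval_cases m <;> omega
  subst hm5
  have hfr : Subgroup.normalizer ((P : Subgroup G) : Set G) ⊔ N = ⊤ :=
    Sylow.normalizer_sup_eq_top' P hPN
  have hidx : N.index ∣ 5 := by
    have e1 : N.index = N.relIndex (Subgroup.normalizer ((P : Subgroup G) : Set G)) := by
      rw [← Subgroup.relIndex_top_right, ← hfr, Subgroup.relIndex_sup_right]
    have e2 : N.relIndex (Subgroup.normalizer ((P : Subgroup G) : Set G)) ∣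
        (P : Subgroup G).relIndex (Subgroup.normalizer ((P : Subgroup G) : Set G)) :=
      Subgroup.relIndex_dvd_of_le_left _ hPN
    have e3 : (P : Subgroup G).relIndex (Subgroup.normalizer ((P : Subgroup G) : Set G))
        = 5 := by
      have h1 := Subgroup.relIndex_mul_relIndex (⊥ : Subgroup G) (P : Subgroup G)
        (Subgroup.normalizer ((P : Subgroup G) : Set G)) bot_le Subgroup.le_normalizer
      rw [Subgroup.relIndex_bot_left, Subgroup.relIndex_bot_left, hP, hNP] at h1
      omega
    rw [e1]
    rw [e3] at e2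
    exact e2
  rcases (Nat.dvd_prime (by norm_num : Nat.Prime 5)).mp hidx with h1 | h5
  · exact Subgroup.index_eq_one.mp h1
  · exfalso
    have hHidx : (stabilizer G a).index = 11 := by
      rw [index_stabilizer_of_transitive, h11]
    have hHcard : Nat.card (stabilizer G a) = 720 := by
      have h1 := (stabilizer G a).card_mul_index
      rw [hG, hHidx] at h1
      omega
    have hHN : stabilizer G a ⊔ N = ⊤ := sup_stabilizer_eq_top N a
    have hN'idx : (N.subgroupOf (stabilizer G a)).index = 5 := by
      show N.relIndex (stabilizer G a) = 5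
      rw [← Subgroup.relIndex_sup_right (H := stabilizer G a) (K := N), hHN,
        Subgroup.relIndex_top_right, h5]
    have hN'card : Nat.card (N.subgroupOf (stabilizer G a)) = 144 := by
      have h1 := (N.subgroupOf (stabilizer G a)).card_mul_index
      rw [hN'idx, hHcard] at h1
      omega
    haveI h3 : IsMultiplyPretransitive (stabilizer G a) (SubMulAction.ofStabilizer G a) 3 :=
      SubMulAction.ofStabilizer.isMultiplyPretransitive.mp inferInstance
    have hβ : Nat.card (SubMulAction.ofStabilizer G a) = 10 := by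
      have h1 := SubMulAction.nat_card_ofStabilizer_add_one_eq G a
      omega
    haveI h2' : IsMultiplyPretransitive (stabilizer G a) (SubMulAction.ofStabilizer G a) 2 :=
      isMultiplyPretransitive_of_le (n := 3) (by norm_num) (by omega)
    haveI : IsPreprimitive (stabilizer G a) (SubMulAction.ofStabilizer G a) :=
      isPreprimitive_of_is_two_pretransitive h2'
    by_cases hfix' : fixedPoints (N.subgroupOf (stabilizer G a))
        (SubMulAction.ofStabilizer G a) = Set.univ
    · have h1 : N.subgroupOf (stabilizer G a) = ⊥ := by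
        rw [eq_bot_iff]
        intro n hn
        rw [Subgroup.mem_bot]
        apply Subtype.ext
        apply hfaith
        intro b
        by_cases hb : b = a
        · rw [hb]; exact n.2
        · have h4 : (⟨b, (SubMulAction.mem_ofStabilizer_iff G a).mpr hb⟩ :
              SubMulAction.ofStabilizer G a) ∈ fixedPoints (N.subgroupOf (stabilizer G a))
              (SubMulAction.ofStabilizer G a) := hfix' ▸ Set.mem_univ _
          have h5 := h4 ⟨n, hn⟩
          exact congrArg Subtype.val h5
      rw [h1, Subgroup.card_bot] at hN'card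
      omega
    · haveI : IsPretransitive (N.subgroupOf (stabilizer G a))
          (SubMulAction.ofStabilizer G a) :=
        IsQuasiPreprimitive.isPretransitive_of_normal hfix'
      obtain ⟨b⟩ : Nonempty (SubMulAction.ofStabilizer G a) :=
        (Nat.card_pos_iff.mp (by omega)).1
      have h1 := index_stabilizer_of_transitive (N.subgroupOf (stabilizer G a)) b
      rw [hβ] at h1
      have hd : 10 ∣ Nat.card (N.subgroupOf (stabilizer G a)) :=
        h1 ▸ Subgroup.index_dvd_card _
      rw [hN'card] at hd
      omega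

/-- A sharply 5-transitive action on 12 points: the group is simple of order 95040. -/
theorem sharp5_12_simple {G α : Type*} [Group G] [MulAction G α] [Finite G] [Finite α]
    [IsMultiplyPretransitive G α 5] (hsharp : ∀ x : Fin 5 ↪ α, stabilizer G x = ⊥)
    (h12 : Nat.card α = 12) : IsSimpleGroup G ∧ Nat.card G = 95040 := by
  have hG : Nat.card G = 95040 := by
    rw [sharp_card_group hsharp (by omega), h12]; rfl
  refine ⟨?_, hG⟩
  have hfaith := faithful_of_sharp hsharp (by omega : 5 ≤ Nat.card α)
  haveI h2 : IsMultiplyPretransitive G α 2 :=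
    isMultiplyPretransitive_of_le (n := 5) (by norm_num) (by omega)
  haveI : IsPreprimitive G α := isPreprimitive_of_is_two_pretransitive h2
  haveI : IsPretransitive G α := sharp_pretransitive (k := 5) (by norm_num) (by omega)
  haveI : Nontrivial G := by
    rw [← Finite.one_lt_card_iff_nontrivial]; omega
  refine IsSimpleGroup.mk ?_
  intro N hN
  by_cases hbot : N = ⊥
  · exact Or.inl hbot
  right
  haveI := hN
  have hfix : fixedPoints N α ≠ Set.univ := fixedPoints_ne_univ hfaith N hbot
  haveI hNt : IsPretransitive N α := IsQuasiPreprimitive.isPretransitive_of_normal hfix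
  obtain ⟨a⟩ : Nonempty α := (Nat.card_pos_iff.mp (by omega)).1
  obtain ⟨hs1, hs2⟩ := sharp_ofStabilizer hsharp a
  haveI := hs1
  have hβ : Nat.card (SubMulAction.ofStabilizer G a) = 11 := by
    have h1 := SubMulAction.nat_card_ofStabilizer_add_one_eq G a
    omega
  obtain ⟨hsimple, -⟩ := sharp4_11_simple hs2 hβ
  have hHN : stabilizer G a ⊔ N = ⊤ := sup_stabilizer_eq_top N a
  rcases hsimple.eq_bot_or_eq_top_of_normal (N.subgroupOf (stabilizer G a)) inferInstance
    with h0 | h1
  · exfalso
    have hinf : ∀ n ∈ N, n • a = a → n = 1 := by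
      intro n hn hna
      have h3 : (⟨n, hna⟩ : stabilizer G a) ∈ N.subgroupOf (stabilizer G a) :=
        Subgroup.mem_subgroupOf.mpr hn
      rw [h0, Subgroup.mem_bot] at h3
      exact congrArg Subtype.val h3
    have hconj : ∀ n ∈ N, ∀ n' ∈ N, n ≠ 1 → n' ≠ 1 → orderOf n = orderOf n' := by
      intro n hn n' hn' hn1 hn'1
      have hna : n • a ≠ a := fun h => hn1 (hinf n hn h)
      have hn'a : n' • a ≠ a := fun h => hn'1 (hinf n' hn' h)
      have h2'' : ∀ {a b c d : α}, a ≠ b → c ≠ d → ∃ g : G, g • a = c ∧ g • b = d :=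
        is_two_pretransitive_iff.mp h2
      obtain ⟨g, hga, hgb⟩ := h2'' (Ne.symm hna) (Ne.symm hn'a)
      have h3 : g * n * g⁻¹ = n' := by
        have h4 : (n'⁻¹ * (g * n * g⁻¹)) • a = a := by
          have h6 : g⁻¹ • a = a := by rw [inv_smul_eq_iff, hga]
          rw [mul_smul, mul_smul, mul_smul, h6, hgb, inv_smul_smul]
        have h5 := hinf _ (N.mul_mem (N.inv_mem hn') (hN.conj_mem n hn g)) h4
        exact (inv_mul_eq_one.mp h5).symm
      rw [← h3]
      have h7 := MulEquiv.orderOf_eq (MulAut.conj g) n
      rw [MulAut.conj_apply] at h7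
      exact h7.symm
    have hNcard : Nat.card N = 12 := by
      have hb : Function.Bijective (fun n : N => n • a) := by
        refine ⟨?_, fun b => exists_smul_eq N a b⟩
        intro n n' h
        have h' : (n : G) • a = (n' : G) • a := h
        have h3 := hinf ((n' : G)⁻¹ * n) (N.mul_mem (N.inv_mem n'.2) n.2)
          (by rw [mul_smul, h', inv_smul_smul])
        exact Subtype.ext (inv_mul_eq_one.mp h3).symm
      rw [Nat.card_congr (Equiv.ofBijective _ hb), h12]
    haveI : Fact (Nat.Prime 2) := ⟨Nat.prime_two⟩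
    haveI : Fact (Nat.Prime 3) := ⟨Nat.prime_three⟩
    obtain ⟨x, hx⟩ := exists_prime_orderOf_dvd_card' (G := N) 2 (by rw [hNcard]; norm_num)
    obtain ⟨y, hy⟩ := exists_prime_orderOf_dvd_card' (G := N) 3 (by rw [hNcard]; norm_num)
    have hx1 : (x : G) ≠ 1 := by
      intro h
      rw [← Subgroup.orderOf_coe, h, orderOf_one] at hx
      omega
    have hy1 : (y : G) ≠ 1 := by
      intro h
      rw [← Subgroup.orderOf_coe, h, orderOf_one] at hy
      omega
    have h3 := hconj x x.2 y y.2 hx1 hy1
    rw [Subgroup.orderOf_coe, Subgroup.orderOf_coe, hx, hy] at h3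
    omega
  · have hle : stabilizer G a ≤ N := by
      intro h hh
      have h3 : (⟨h, hh⟩ : stabilizer G a) ∈ N.subgroupOf (stabilizer G a) :=
        h1 ▸ Subgroup.mem_top _
      exact Subgroup.mem_subgroupOf.mp h3
    rw [← hHN]
    exact (sup_eq_right.mpr hle).symm

end Cfsg.Agent.Helper4
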