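import Mathlib

set_option autoImplicit false

namespace Cfsg.Agent.Helper4.SpTv

open Matrix

variable {n : ℕ}

theorem z2_cases : ∀ k : ZMod 2, k ≠ 1 → k = 0 := by decide
theorem z2_add_self : ∀ k : ZMod 2, k + k = 0 := by decide
theorem z2_two : (2 : ZMod 2) = 0 := by decide

theorem vadd_self {ι : Type*} (v : ι → ZMod 2) : v + v = 0 := by
  ext i; exact z2_add_self _

theorem vadd_eq_zero {ι : Type*} {u v : ι → ZMod 2} (h : u + v = 0) : u = v := by
  calc u = u + (v + v) := by rw [vadd_self, add_zero]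
    _ = (u + v) + v := (add_assoc _ _ _).symm
    _ = v := by rw [h, zero_add]

/-- the symplectic form -/
def B (x y : Fin n ⊕ Fin n → ZMod 2) : ZMod 2 := x ⬝ᵥ (Matrix.J (Fin n) (ZMod 2) *ᵥ y)

theorem B_add_left (x y z : Fin n ⊕ Fin n → ZMod 2) : B (x + y) z = B x z + B y z := by
  unfold B; rw [add_dotProduct]

theorem B_add_right (x y z : Fin n ⊕ Fin n → ZMod 2) : B x (y + z) = B x y + B x z := by
  unfold B; rw [mulVec_add, dotProduct_add]

theorem B_smul_left (k : ZMod 2) (x y : Fin n ⊕ Fin n → ZMod 2) : B (k • x) y = k * B x y := by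
  unfold B; rw [smul_dotProduct, smul_eq_mul]

theorem B_smul_right (k : ZMod 2) (x y : Fin n ⊕ Fin n → ZMod 2) : B x (k • y) = k * B x y := by
  unfold B; rw [mulVec_smul, dotProduct_smul, smul_eq_mul]

theorem B_zero_left (y : Fin n ⊕ Fin n → ZMod 2) : B 0 y = 0 := by
  unfold B; rw [zero_dotProduct]

theorem B_zero_right (x : Fin n ⊕ Fin n → ZMod 2) : B x 0 = 0 := by
  unfold B; rw [mulVec_zero, dotProduct_zero]

theorem B_self (x : Fin n ⊕ Fin n → ZMod 2) : B x x = 0 := by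
  unfold B
  simp [dotProduct, mulVec, Matrix.J, Fintype.sum_sum_type, Matrix.one_apply, mul_comm]
  exact z2_add_self _

theorem B_comm (x y : Fin n ⊕ Fin n → ZMod 2) : B x y = B y x := by
  have h := B_self (x + y)
  rw [B_add_left, B_add_right, B_add_right, B_self, B_self, zero_add, add_zero] at h
  have : ∀ a b : ZMod 2, a + b = 0 → a = b := by decide
  exact this _ _ h

theorem B_nondeg (d : Fin n ⊕ Fin n → ZMod 2) (hd : d ≠ 0) : ∃ v, B v d = 1 := by
  by_contra h
  push Not at h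
  have h0 : ∀ v, B v d = 0 := fun v => z2_cases _ (h v)
  have hJ : Matrix.J (Fin n) (ZMod 2) *ᵥ d = 0 := by
    ext i
    have := h0 (Pi.single i 1)
    unfold B at this
    rwa [single_one_dotProduct] at this
  have h2 : (Matrix.J (Fin n) (ZMod 2) * Matrix.J (Fin n) (ZMod 2)) *ᵥ d = 0 := by
    rw [← mulVec_mulVec, hJ, mulVec_zero]
  rw [J_squared, neg_mulVec, one_mulVec, neg_eq_zero] at h2
  exact hd h2

theorem exists_both (u v : Fin n ⊕ Fin n → ZMod 2) (hu : u ≠ 0) (hv : v ≠ 0) :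
    ∃ w, B w u = 1 ∧ B w v = 1 := by
  obtain ⟨w₁, h₁⟩ := B_nondeg u hu
  obtain ⟨w₂, h₂⟩ := B_nondeg v hv
  by_cases h3 : B w₁ v = 1
  · exact ⟨w₁, h₁, h3⟩
  by_cases h4 : B w₂ u = 1
  · exact ⟨w₂, h4, h₂⟩
  refine ⟨w₁ + w₂, ?_, ?_⟩
  · rw [B_add_left, h₁, z2_cases _ h4, add_zero]
  · rw [B_add_left, h₂, z2_cases _ h3, zero_add]

/-- the action on vectors -/
def act (g : Matrix.symplecticGroup (Fin n) (ZMod 2)) (x : Fin n ⊕ Fin n → ZMod 2) :
    Fin n ⊕ Fin n → ZMod 2 :=
  (g : Matrix (Fin n ⊕ Fin n) (Fin n ⊕ Fin n) (ZMod 2)) *ᵥ x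

theorem act_mul (g h : Matrix.symplecticGroup (Fin n) (ZMod 2)) (x : Fin n ⊕ Fin n → ZMod 2) :
    act (g * h) x = act g (act h x) := by
  unfold act; rw [Submonoid.coe_mul, mulVec_mulVec]

theorem act_one (x : Fin n ⊕ Fin n → ZMod 2) :
    act (1 : Matrix.symplecticGroup (Fin n) (ZMod 2)) x = x := by
  unfold act; rw [Submonoid.coe_one, one_mulVec]

theorem act_inv_act (g : Matrix.symplecticGroup (Fin n) (ZMod 2)) (x : Fin n ⊕ Fin n → ZMod 2) :
    act g⁻¹ (act g x) = x := by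
  rw [← act_mul, inv_mul_cancel, act_one]

theorem act_act_inv (g : Matrix.symplecticGroup (Fin n) (ZMod 2)) (x : Fin n ⊕ Fin n → ZMod 2) :
    act g (act g⁻¹ x) = x := by
  rw [← act_mul, mul_inv_cancel, act_one]

theorem act_add (g : Matrix.symplecticGroup (Fin n) (ZMod 2)) (x y : Fin n ⊕ Fin n → ZMod 2) :
    act g (x + y) = act g x + act g y := by
  unfold act; rw [mulVec_add]

theorem act_smul (g : Matrix.symplecticGroup (Fin n) (ZMod 2)) (k : ZMod 2)
    (x : Fin n ⊕ Fin n → ZMod 2) : act g (k • x) = k • act g x := by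
  unfold act; rw [mulVec_smul]

theorem act_zero (g : Matrix.symplecticGroup (Fin n) (ZMod 2)) :
    act g 0 = 0 := by
  unfold act; rw [mulVec_zero]

theorem act_inj {g h : Matrix.symplecticGroup (Fin n) (ZMod 2)}
    (H : ∀ x, act g x = act h x) : g = h :=
  Subtype.ext (Matrix.ext_iff_mulVec.mpr H)

theorem bil_transpose (A : Matrix (Fin n ⊕ Fin n) (Fin n ⊕ Fin n) (ZMod 2))
    (x y : Fin n ⊕ Fin n → ZMod 2) :
    x ⬝ᵥ ((Aᵀ * Matrix.J (Fin n) (ZMod 2) * A) *ᵥ y) = B (A *ᵥ x) (A *ᵥ y) := by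
  unfold B
  calc x ⬝ᵥ ((Aᵀ * Matrix.J (Fin n) (ZMod 2) * A) *ᵥ y)
      = x ⬝ᵥ (Aᵀ *ᵥ (Matrix.J (Fin n) (ZMod 2) *ᵥ (A *ᵥ y))) := by
        rw [mulVec_mulVec, mulVec_mulVec]
    _ = (x ᵥ* Aᵀ) ⬝ᵥ (Matrix.J (Fin n) (ZMod 2) *ᵥ (A *ᵥ y)) := dotProduct_mulVec _ _ _
    _ = (A *ᵥ x) ⬝ᵥ (Matrix.J (Fin n) (ZMod 2) *ᵥ (A *ᵥ y)) := by rw [vecMul_transpose]

theorem B_act (g : Matrix.symplecticGroup (Fin n) (ZMod 2)) (x y : Fin n ⊕ Fin n → ZMod 2) :
    B (act g x) (act g y) = B x y := by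
  have hg := SymplecticGroup.mem_iff'.mp g.2
  unfold act
  rw [← bil_transpose, hg]
  rfl

theorem mat_ext_bil {M N : Matrix (Fin n ⊕ Fin n) (Fin n ⊕ Fin n) (ZMod 2)}
    (h : ∀ x y, x ⬝ᵥ (M *ᵥ y) = x ⬝ᵥ (N *ᵥ y)) : M = N := by
  ext i j
  have := h (Pi.single i 1) (Pi.single j 1)
  simpa [single_one_dotProduct, mulVec_single_one] using this

/-- the transvection matrix -/
def tvM (c : Fin n ⊕ Fin n → ZMod 2) : Matrix (Fin n ⊕ Fin n) (Fin n ⊕ Fin n) (ZMod 2) :=
  1 + Matrix.vecMulVec c (c ᵥ* Matrix.J (Fin n) (ZMod 2))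

theorem tvM_mulVec (c x : Fin n ⊕ Fin n → ZMod 2) : tvM c *ᵥ x = x + B c x • c := by
  unfold tvM B
  rw [add_mulVec, one_mulVec, vecMulVec_mulVec, op_smul_eq_smul, dotProduct_mulVec]

theorem B_tv_aux (c x y : Fin n ⊕ Fin n → ZMod 2) :
    B (x + B c x • c) (y + B c y • c) = B x y := by
  simp only [B_add_left, B_add_right, B_smul_left, B_smul_right, B_self, B_comm x c]
  linear_combination (B c x * B c y) * z2_two

theorem tvM_mem (c : Fin n ⊕ Fin n → ZMod 2) : tvM c ∈ Matrix.symplecticGroup (Fin n) (ZMod 2) := by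
  rw [SymplecticGroup.mem_iff']
  apply mat_ext_bil
  intro x y
  rw [bil_transpose, tvM_mulVec, tvM_mulVec, B_tv_aux]
  rfl

/-- the symplectic transvection -/
def tv (c : Fin n ⊕ Fin n → ZMod 2) : Matrix.symplecticGroup (Fin n) (ZMod 2) :=
  ⟨tvM c, tvM_mem c⟩

theorem act_tv (c x : Fin n ⊕ Fin n → ZMod 2) : act (tv c) x = x + B c x • c :=
  tvM_mulVec c x

theorem tv_zero : tv (0 : Fin n ⊕ Fin n → ZMod 2) = 1 := by
  apply act_inj
  intro x
  rw [act_tv, act_one, smul_zero, add_zero]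

theorem tv_mul_self (c : Fin n ⊕ Fin n → ZMod 2) : tv c * tv c = 1 := by
  apply act_inj
  intro x
  rw [act_mul, act_one, act_tv, act_tv, B_add_right, B_smul_right, B_self, mul_zero, add_zero,
    add_assoc, vadd_self, add_zero]

theorem tv_inv (c : Fin n ⊕ Fin n → ZMod 2) : (tv c)⁻¹ = tv c :=
  inv_eq_of_mul_eq_one_left (tv_mul_self c)

theorem tv_ne_one (c : Fin n ⊕ Fin n → ZMod 2) (hc : c ≠ 0) : tv c ≠ 1 := by
  obtain ⟨v, hv⟩ := B_nondeg c hc
  intro h
  have h1 : act (tv c) v = v := by rw [h, act_one]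
  rw [act_tv, B_comm, hv, one_smul] at h1
  exact hc (by simpa using h1)

theorem orderOf_tv (c : Fin n ⊕ Fin n → ZMod 2) (hc : c ≠ 0) : orderOf (tv c) = 2 := by
  have : Fact (Nat.Prime 2) := ⟨Nat.prime_two⟩
  exact orderOf_eq_prime (by rw [pow_two, tv_mul_self]) (tv_ne_one c hc)

theorem conj_tv (g : Matrix.symplecticGroup (Fin n) (ZMod 2)) (c : Fin n ⊕ Fin n → ZMod 2) :
    g * tv c * g⁻¹ = tv (act g c) := by
  apply act_inj
  intro x
  rw [act_mul, act_mul, act_tv, act_tv, act_add, act_smul, act_act_inv]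
  congr 2
  rw [← B_act g c (act g⁻¹ x), act_act_inv]

theorem tv_fix (c f : Fin n ⊕ Fin n → ZMod 2) (h : B c f = 0) : act (tv c) f = f := by
  rw [act_tv, h, zero_smul, add_zero]

theorem tv_swap (u v : Fin n ⊕ Fin n → ZMod 2) (h : B u v = 1) : act (tv (u + v)) u = v := by
  rw [act_tv, B_add_left, B_self, B_comm v u, h, zero_add, one_smul, ← add_assoc, vadd_self,
    zero_add]

theorem tv_comm (c d : Fin n ⊕ Fin n → ZMod 2) (h : B c d = 0) : tv c * tv d = tv d * tv c := by
  have h1 := conj_tv (tv c) d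
  rw [tv_fix c d h, tv_inv] at h1
  calc tv c * tv d = tv c * tv d * (tv c * tv c) := by rw [tv_mul_self, mul_one]
    _ = (tv c * tv d * tv c) * tv c := by group
    _ = tv d * tv c := by rw [h1]

theorem tv_braid (c d : Fin n ⊕ Fin n → ZMod 2) (h : B c d = 1) :
    tv c * tv d * tv c = tv d * tv c * tv d := by
  have h1 := conj_tv (tv c) d
  have h2 := conj_tv (tv d) c
  rw [tv_inv, act_tv, h, one_smul] at h1
  rw [tv_inv, act_tv, B_comm, h, one_smul, add_comm] at h2
  rw [h1, h2]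

theorem tv_three (c d : Fin n ⊕ Fin n → ZMod 2) :
    (tv c * tv d) ^ 2 = 1 ∨ (tv c * tv d) ^ 3 = 1 := by
  by_cases h : B c d = 1
  · right
    have h1 := conj_tv (tv c) d
    rw [tv_inv, act_tv, h, one_smul] at h1
    calc (tv c * tv d) ^ 3 = (tv c * tv d * tv c) * (tv d * tv c * tv d) := by
          simp only [pow_succ, pow_zero, one_mul, mul_assoc]
      _ = (tv c * tv d * tv c) * (tv c * tv d * tv c) := by rw [tv_braid c d h]
      _ = 1 := by rw [h1, tv_mul_self]
  · left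
    have h0 := z2_cases _ h
    calc (tv c * tv d) ^ 2 = tv c * tv d * (tv c * tv d) := pow_two _
      _ = tv c * tv d * (tv d * tv c) := by rw [tv_comm c d h0]
      _ = tv c * (tv d * tv d) * tv c := by group
      _ = 1 := by rw [tv_mul_self, mul_one, tv_mul_self]

theorem exists_act_eq (u v : Fin n ⊕ Fin n → ZMod 2) (hu : u ≠ 0) (hv : v ≠ 0) :
    ∃ g : Matrix.symplecticGroup (Fin n) (ZMod 2), act g u = v := by
  by_cases h : B u v = 1
  · exact ⟨tv (u + v), tv_swap u v h⟩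
  · obtain ⟨w, hw1, hw2⟩ := exists_both u v hu hv
    refine ⟨tv (w + v) * tv (u + w), ?_⟩
    rw [act_mul, tv_swap u w (by rw [B_comm, hw1]), tv_swap w v hw2]

theorem act_ne_zero (g : Matrix.symplecticGroup (Fin n) (ZMod 2)) (c : Fin n ⊕ Fin n → ZMod 2)
    (hc : c ≠ 0) : act g c ≠ 0 := by
  intro h
  apply hc
  rw [← act_inv_act g c, h, act_zero]

theorem tv_sub_one (c : Fin n ⊕ Fin n → ZMod 2) :
    ((tv c : Matrix.symplecticGroup (Fin n) (ZMod 2)) : Matrix (Fin n ⊕ Fin n) (Fin n ⊕ Fin n) (ZMod 2)) - 1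
      = Matrix.vecMulVec c (c ᵥ* Matrix.J (Fin n) (ZMod 2)) := by
  show tvM c - 1 = _
  unfold tvM
  rw [add_sub_cancel_left]

theorem rank_tv (c : Fin n ⊕ Fin n → ZMod 2) (hc : c ≠ 0) :
    ((tv c : Matrix (Fin n ⊕ Fin n) (Fin n ⊕ Fin n) (ZMod 2)) - 1).rank = 1 := by
  rw [tv_sub_one]
  apply le_antisymm (rank_vecMulVec_le _ _)
  rw [Nat.one_le_iff_ne_zero]
  intro h0
  unfold Matrix.rank at h0
  rw [Submodule.finrank_eq_zero] at h0
  obtain ⟨v, hv⟩ := B_nondeg c hc
  have hmem : (Matrix.vecMulVec c (c ᵥ* Matrix.J (Fin n) (ZMod 2))).mulVecLin v ∈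
      LinearMap.range (Matrix.vecMulVec c (c ᵥ* Matrix.J (Fin n) (ZMod 2))).mulVecLin :=
    LinearMap.mem_range_self _ _
  rw [h0, Submodule.mem_bot, Matrix.mulVecLin_apply, vecMulVec_mulVec, op_smul_eq_smul,
    ← dotProduct_mulVec] at hmem
  have h1 : B c v = 1 := by rw [B_comm, hv]
  unfold B at h1
  rw [h1, one_smul] at hmem
  exact hc hmem

theorem eq_tv_of_rank (g : Matrix.symplecticGroup (Fin n) (ZMod 2))
    (h : ((g : Matrix (Fin n ⊕ Fin n) (Fin n ⊕ Fin n) (ZMod 2)) - 1).rank = 1) :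
    ∃ c, c ≠ 0 ∧ g = tv c := by
  unfold Matrix.rank at h
  rw [finrank_eq_one_iff'] at h
  obtain ⟨⟨c, hcmem⟩, hc0, hspan⟩ := h
  have hc : c ≠ 0 := fun h => hc0 (Subtype.ext h)
  have hf : ∀ x, ∃ k : ZMod 2, act g x = x + k • c := by
    intro x
    obtain ⟨k, hk⟩ := hspan ⟨((g : Matrix (Fin n ⊕ Fin n) (Fin n ⊕ Fin n) (ZMod 2)) - 1).mulVecLin x,
      LinearMap.mem_range_self _ _⟩
    refine ⟨k, ?_⟩
    have hk' : k • c = ((g : Matrix (Fin n ⊕ Fin n) (Fin n ⊕ Fin n) (ZMod 2)) - 1) *ᵥ x :=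
      congrArg Subtype.val hk
    rw [hk', sub_mulVec, one_mulVec]
    unfold act
    abel
  choose f hf using hf
  have key : ∀ x y, f y * B c x = f x * B c y := by
    intro x y
    have := B_act g x y
    rw [hf x, hf y] at this
    simp only [B_add_left, B_add_right, B_smul_left, B_smul_right, B_self, B_comm x c] at this
    have h2 : ∀ a b : ZMod 2, a + b = 0 → a = b := by decide
    apply h2
    linear_combination this
  obtain ⟨x₀, hx₀⟩ := B_nondeg c hc
  have hx₀' : B c x₀ = 1 := by rw [B_comm, hx₀]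
  have hfy : ∀ y, f y = f x₀ * B c y := by
    intro y
    have := key x₀ y
    rw [hx₀', mul_one] at this
    exact this
  have hf1 : f x₀ = 1 := by
    by_contra hne
    have h0 := z2_cases _ hne
    have hall : ∀ y, act g y = y := by
      intro y
      rw [hf y, hfy y, h0, zero_mul, zero_smul, add_zero]
    obtain ⟨x', hx'⟩ := hcmem
    rw [Matrix.mulVecLin_apply, sub_mulVec, one_mulVec] at hx'
    have := hall x'
    unfold act at this
    rw [this, sub_self] at hx'
    exact hc hx'.symm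
  refine ⟨c, hc, act_inj fun x => ?_⟩
  rw [act_tv, hf x, hfy x, hf1, one_mul]

theorem fix_perp (g : Matrix.symplecticGroup (Fin n) (ZMod 2)) (f v : Fin n ⊕ Fin n → ZMod 2)
    (hf : act g f = f) : B (act g v + v) f = 0 := by
  rw [B_add_left]
  have := B_act g v f
  rw [hf] at this
  rw [this, z2_add_self]

theorem exists_tau (g : Matrix.symplecticGroup (Fin n) (ZMod 2)) (x : Fin n ⊕ Fin n → ZMod 2)
    (hx : act g x ≠ x) :
    ∃ τ ∈ Subgroup.closure {t : Matrix.symplecticGroup (Fin n) (ZMod 2) | ∃ c, c ≠ 0 ∧ t = tv c},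
      (∀ f, act g f = f → act τ f = f) ∧ act τ (act g x) = x := by
  have hmem : ∀ c, tv c ∈
      Subgroup.closure {t : Matrix.symplecticGroup (Fin n) (ZMod 2) | ∃ c, c ≠ 0 ∧ t = tv c} := by
    intro c
    by_cases hc : c = 0
    · rw [hc, tv_zero]; exact one_mem _
    · exact Subgroup.subset_closure ⟨c, hc, rfl⟩
  have hd : ∀ f, act g f = f → B (x + act g x) f = 0 := by
    intro f hf
    rw [add_comm]
    exact fix_perp g f x hf
  by_cases hxy : B x (act g x) = 1
  · refine ⟨tv (x + act g x), hmem _, fun f hf => tv_fix _ _ (hd f hf), ?_⟩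
    rw [add_comm]
    exact tv_swap (act g x) x (by rw [B_comm, hxy])
  · have hxy0 := z2_cases _ hxy
    have hd0 : x + act g x ≠ 0 := fun h => hx (vadd_eq_zero h).symm
    have hx'0 : x + act g⁻¹ x ≠ 0 := by
      intro h
      have h1 := vadd_eq_zero h
      apply hx
      conv_lhs => rw [h1]
      exact act_act_inv g x
    obtain ⟨v, hv1, hv2⟩ := exists_both _ _ hd0 hx'0
    have hb_y : B (act g v + v) (act g x) = 1 := by
      rw [B_add_left, B_act, ← B_add_right]
      exact hv1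
    have hx_gv : B x (act g v) = B (act g⁻¹ x) v := by
      rw [← B_act g (act g⁻¹ x) v, act_act_inv]
    have ha_z : B (act g x + (act g v + v) + x) (act g x + (act g v + v)) = 1 := by
      rw [B_add_left, B_self, zero_add, B_add_right, hxy0, zero_add, B_add_right, hx_gv,
        B_comm (act g⁻¹ x) v, B_comm x v, ← B_add_right, add_comm]
      exact hv2
    refine ⟨tv (act g x + (act g v + v) + x) * tv (act g v + v), mul_mem (hmem _) (hmem _), ?_, ?_⟩
    · intro f hf
      have hbf := fix_perp g f v hf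
      rw [act_mul, tv_fix _ f hbf]
      apply tv_fix
      have := hd f hf
      rw [B_add_left] at this
      rw [B_add_left, B_add_left, hbf, add_zero, add_comm]
      exact this
    · rw [act_mul, act_tv (act g v + v) (act g x), hb_y, one_smul, act_tv, ha_z, one_smul,
        ← add_assoc, vadd_self, zero_add]

theorem closure_tv :
    Subgroup.closure {t : Matrix.symplecticGroup (Fin n) (ZMod 2) | ∃ c, c ≠ 0 ∧ t = tv c} = ⊤ := by
  classical
  rw [eq_top_iff]
  intro g _
  have main : ∀ N : ℕ, ∀ g : Matrix.symplecticGroup (Fin n) (ZMod 2),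
      (Finset.univ.filter (fun x => act g x ≠ x)).card ≤ N →
      g ∈ Subgroup.closure {t : Matrix.symplecticGroup (Fin n) (ZMod 2) | ∃ c, c ≠ 0 ∧ t = tv c} := by
    intro N
    induction N with
    | zero =>
      intro g hg
      have : g = 1 := by
        apply act_inj
        intro x
        rw [act_one]
        by_contra hx
        have hmem : x ∈ Finset.univ.filter (fun x => act g x ≠ x) := by simp [hx]
        have := Finset.card_pos.mpr ⟨x, hmem⟩
        omega
      rw [this]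
      exact one_mem _
    | succ N ih =>
      intro g hg
      by_cases hfix : ∀ x, act g x = x
      · have : g = 1 := act_inj (fun x => by rw [hfix, act_one])
        rw [this]
        exact one_mem _
      · push Not at hfix
        obtain ⟨x, hx⟩ := hfix
        obtain ⟨τ, hτ, hτf, hτx⟩ := exists_tau g x hx
        have hlt : (Finset.univ.filter (fun x => act (τ * g) x ≠ x)).card <
            (Finset.univ.filter (fun x => act g x ≠ x)).card := by
          apply Finset.card_lt_card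
          rw [Finset.ssubset_iff_of_subset]
          · exact ⟨x, by simp [hx], by simp [act_mul, hτx]⟩
          · intro f hf
            simp only [Finset.mem_filter, Finset.mem_univ, true_and] at hf ⊢
            intro h
            apply hf
            rw [act_mul, h, hτf f h]
        have h1 := ih (τ * g) (by omega)
        have h2 : g = τ⁻¹ * (τ * g) := by group
        rw [h2]
        exact mul_mem (inv_mem hτ) h1
  exact main _ g le_rfl

end Cfsg.Agent.Helper4.SpTv
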