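import Mathlib
import Cfsg.Agent.Helper4.Zass
import Cfsg.Agent.Helper4.Sharp2

set_option autoImplicit false

namespace Cfsg.Agent.Helper4.Zass13

open Cfsg.Agent.Helper4.Zass

/-- translation by `k` on the projective line over the field with 13 elements (`13` is `∞`) -/
def cpow (k : ℕ) (z : Fin 14) : Fin 14 :=
  if h : z.val < 13 then ⟨(z.val + k) % 13, by omega⟩ else z

/-- multiplication by `4 ^ l` -/
def mpow (l : ℕ) (z : Fin 14) : Fin 14 :=
  if h : z.val < 13 then ⟨(4 ^ l * z.val) % 13, by omega⟩ else z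

theorem cpow_zero (z : Fin 14) : cpow 0 z = z := by
  unfold cpow
  split_ifs with h
  · apply Fin.ext
    show (z.val + 0) % 13 = z.val
    omega
  · rfl

theorem cpow_add (a b : ℕ) (z : Fin 14) : cpow a (cpow b z) = cpow (a + b) z := by
  unfold cpow
  by_cases h : z.val < 13
  · simp only [h, ↓reduceDIte]
    rw [dif_pos (Nat.mod_lt _ (by norm_num))]
    apply Fin.ext
    show ((z.val + b) % 13 + a) % 13 = (z.val + (a + b)) % 13
    omega
  · simp only [h, ↓reduceDIte]

theorem mpow_zero (z : Fin 14) : mpow 0 z = z := by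
  unfold mpow
  split_ifs with h
  · apply Fin.ext
    show (4 ^ 0 * z.val) % 13 = z.val
    rw [pow_zero, one_mul]
    exact Nat.mod_eq_of_lt h
  · rfl

theorem mpow_add (a b : ℕ) (z : Fin 14) : mpow a (mpow b z) = mpow (a + b) z := by
  unfold mpow
  by_cases h : z.val < 13
  · simp only [h, ↓reduceDIte]
    rw [dif_pos (Nat.mod_lt _ (by norm_num))]
    apply Fin.ext
    show (4 ^ a * ((4 ^ b * z.val) % 13)) % 13 = (4 ^ (a + b) * z.val) % 13
    rw [Nat.mul_mod_mod, ← mul_assoc, ← pow_add]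
  · simp only [h, ↓reduceDIte]

theorem four_pow_mod (e : ℕ) : 4 ^ (e % 6) % 13 = 4 ^ e % 13 := by
  conv_rhs => rw [← Nat.div_add_mod e 6, pow_add, pow_mul, Nat.mul_mod, Nat.pow_mod]
  norm_num

theorem mpow_mod (e : ℕ) (z : Fin 14) : mpow (e % 6) z = mpow e z := by
  unfold mpow
  by_cases h : z.val < 13
  · simp only [h, ↓reduceDIte]
    apply Fin.ext
    show (4 ^ (e % 6) * z.val) % 13 = (4 ^ e * z.val) % 13
    rw [Nat.mul_mod, four_pow_mod, ← Nat.mul_mod]
  · simp only [h, ↓reduceDIte]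

/-- the translation `z ↦ z + 1` -/
def cPerm : Equiv.Perm (Fin 14) := ⟨cpow 1, cpow 12, by decide, by decide⟩

/-- the multiplication `z ↦ 4 z` -/
def mPerm : Equiv.Perm (Fin 14) := ⟨mpow 1, mpow 5, by decide, by decide⟩

theorem cPerm_pow (k : ℕ) (z : Fin 14) : (cPerm ^ k) z = cpow k z := by
  induction k generalizing z with
  | zero => rw [pow_zero, cpow_zero]; rfl
  | succ n ih =>
    rw [pow_succ, Equiv.Perm.mul_apply, ih]
    exact cpow_add n 1 z

theorem mPerm_pow (l : ℕ) (z : Fin 14) : (mPerm ^ l) z = mpow l z := by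
  induction l generalizing z with
  | zero => rw [pow_zero, mpow_zero]; rfl
  | succ n ih =>
    rw [pow_succ, Equiv.Perm.mul_apply, ih]
    exact mpow_add n 1 z

/-- a map commuting suitably with `mPerm`, given by two of its values -/
def candF (j : ℕ) (a b : Fin 14) (z : Fin 14) : Fin 14 :=
  match z.val with
  | 0 => 13
  | 1 => a
  | 2 => b
  | 3 => mpow (j * 2 % 6) a
  | 4 => mpow (j * 1 % 6) a
  | 5 => mpow (j * 4 % 6) b
  | 6 => mpow (j * 2 % 6) b
  | 7 => mpow (j * 5 % 6) b
  | 8 => mpow (j * 1 % 6) b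
  | 9 => mpow (j * 4 % 6) a
  | 10 => mpow (j * 5 % 6) a
  | 11 => mpow (j * 3 % 6) b
  | 12 => mpow (j * 3 % 6) a
  | _ => 0

/-- the relation check -/
def relOK (j : ℕ) (a b : Fin 14) : Prop :=
  ∃ (k : Fin 13) (l : Fin 6), ∀ z : Fin 14,
      candF j a b (cpow 1 (candF j a b z)) = cpow a.val (candF j a b (cpow k (mpow l z)))

instance (j : ℕ) (a b : Fin 14) : Decidable (relOK j a b) := by
  unfold relOK; infer_instance

/-- the map `z ↦ -1 / z` -/
def sFun (z : Fin 14) : Fin 14 := candF 5 12 6 z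

/-- the permutation `z ↦ -1 / z` -/
def sPerm : Equiv.Perm (Fin 14) := ⟨sFun, sFun, by decide, by decide⟩

/-- the model group -/
def model : Subgroup (Equiv.Perm (Fin 14)) := Subgroup.closure {cPerm, mPerm, sPerm}

/-- the conclusion of the case check -/
def concl (j : ℕ) (a b : Fin 14) : Prop :=
  ∃ e : Fin 6, ∀ z : Fin 14, candF j a b z = sFun (mpow e z)

instance (j : ℕ) (a b : Fin 14) : Decidable (concl j a b) := by
  unfold concl; infer_instance

set_option maxRecDepth 100000 in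
theorem cand_cases : ∀ (j : Fin 6) (a b : Fin 14), a ≠ 13 → relOK j a b → concl j a b := by
  decide +kernel

theorem cand_eq (σ : Fin 14 → Fin 14) (j : ℕ) (h0 : σ 0 = 13) (hinf : σ 13 = 0)
    (hstep : ∀ e z, σ (mpow e z) = mpow (j * e) (σ z)) :
    ∀ z, σ z = candF j (σ 1) (σ 2) z := by
  intro z
  fin_cases z
  · exact h0
  · rfl
  · rfl
  · exact (hstep 2 1).trans (mpow_mod _ _).symm
  · exact (hstep 1 1).trans (mpow_mod _ _).symm
  · exact (hstep 4 2).trans (mpow_mod _ _).symm
  · exact (hstep 2 2).trans (mpow_mod _ _).symm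
  · exact (hstep 5 2).trans (mpow_mod _ _).symm
  · exact (hstep 1 2).trans (mpow_mod _ _).symm
  · exact (hstep 4 1).trans (mpow_mod _ _).symm
  · exact (hstep 5 1).trans (mpow_mod _ _).symm
  · exact (hstep 3 2).trans (mpow_mod _ _).symm
  · exact (hstep 3 1).trans (mpow_mod _ _).symm
  · exact hinf

/-- `13` is prime -/
local instance fact_prime : Fact (Nat.Prime 13) := ⟨by norm_num⟩

variable {G : Type*} [Group G] [Finite G] [IsSimpleGroup G]

theorem hyp (h : Nat.card G = 1092) : Hyp G 13 6 := by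
  have hP : ∀ P : Sylow 13 G, Nat.card (P : Subgroup G) = 13 := fun P =>
    Cfsg.Agent.Helper4.sylow_card_prime P (m := 84) (by rw [h]) (by norm_num)
  have hn : Nat.card (Sylow 13 G) = 14 := by
    obtain ⟨P⟩ : Nonempty (Sylow 13 G) := inferInstance
    have hidx : (P : Subgroup G).index = 84 := by
      have h1 := (P : Subgroup G).card_mul_index
      rw [h, hP P] at h1
      omega
    have hn1 : Nat.card (Sylow 13 G) ∣ 84 := hidx ▸ P.card_dvd_index
    have hn2 : Nat.card (Sylow 13 G) ≡ 1 [MOD 13] := card_sylow_modEq_one 13 G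
    have hn3 : Nat.card (Sylow 13 G) ≠ 1 :=
      Lead.simple_card_sylow_ne_one P (by rw [hP]; norm_num) (by rw [hP, h]; norm_num)
    have hle : Nat.card (Sylow 13 G) ≤ 84 := Nat.le_of_dvd (by norm_num) hn1
    generalize Nat.card (Sylow 13 G) = n at *
    unfold Nat.ModEq at hn2
    interval_cases n <;> omega
  refine ⟨by norm_num, by norm_num, hP, hn, fun P => ?_⟩
  have h1 := Lead.card_normalizer_mul_card_sylow P
  rw [hn, h] at h1
  omega

theorem exists_y (c : Config G 13) (hy : Hyp G 13 6) :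
    ∃ y ∈ c.stabH, y * c.x * y⁻¹ = c.x ^ 4 ∧ orderOf y = 6 ∧ c.stabH = Subgroup.zpowers y := by
  have : Fact (Nat.Prime 2) := ⟨by norm_num⟩
  have : Fact (Nat.Prime 3) := ⟨by norm_num⟩
  obtain ⟨y2, hy2S, b2, hb2, -, hconj2, hb22, hb21⟩ := c.exists_exp hy 2 (by norm_num)
  obtain ⟨y3, hy3S, b3, hb3, -, hconj3, hb33, hb31⟩ := c.exists_exp hy 3 (by norm_num)
  have hb2' : b2 = 12 := by
    interval_cases b2 <;> first
      | exact absurd hb22 (by decide)
      | exact absurd rfl hb21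
      | rfl
  subst hb2'
  have hex : ∃ e, 12 * b3 ^ e % 13 = 4 := by
    interval_cases b3 <;> first
      | exact absurd hb33 (by decide)
      | exact absurd rfl hb31
      | exact ⟨1, rfl⟩
      | exact ⟨2, rfl⟩
  obtain ⟨e, he⟩ := hex
  have hyS : y2 * y3 ^ e ∈ c.stabH := mul_mem hy2S (pow_mem hy3S e)
  have hyx : (y2 * y3 ^ e) * c.x * (y2 * y3 ^ e)⁻¹ = c.x ^ 4 := by
    rw [conj_mul_exp y2 (y3 ^ e) c.x 12 (b3 ^ e) hconj2 (conj_pow_exp y3 c.x b3 hconj3 e),
      ← c.x_pow_mod, he]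
  obtain ⟨h1, h2⟩ := c.order_of_exp hy (y2 * y3 ^ e) hyS 4 hyx (by decide)
  exact ⟨y2 * y3 ^ e, hyS, hyx, h1, h2⟩

theorem equiv_model (h : Nat.card G = 1092) : Nonempty (G ≃* model) := by
  have hy := hyp h
  obtain ⟨c⟩ := exists_config hy
  obtain ⟨y, hyS, hyx, hym, hyH⟩ := exists_y c hy
  obtain ⟨t, htP, htQ⟩ := c.exists_t hy
  have hX : c.psi hy c.x = cPerm := by
    apply Equiv.ext
    rintro ⟨k, hk⟩
    by_cases hk' : k < 13
    · rw [c.psi_x hy k hk']
      interval_cases k <;> rfl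
    · have hk2 : k = 13 := by omega
      subst hk2
      rw [c.psi_x_last hy]; rfl
  have hY : c.psi hy y = mPerm := by
    apply Equiv.ext
    rintro ⟨k, hk⟩
    by_cases hk' : k < 13
    · rw [c.psi_y hy y hyS 4 hyx k hk']
      interval_cases k <;> rfl
    · have hk2 : k = 13 := by omega
      subst hk2
      rw [c.psi_y_last hy y hyS]; rfl
  obtain ⟨j, hj, hr2⟩ := c.psi_rel2 hy y hyH hym t htP htQ
  obtain ⟨jj, hjj, k, hk, l, hl, hjj2, hr1⟩ := c.psi_rel1 hy y hyH hym t htP htQ
  have hrange := c.range_psi hy y hyH hym t htP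
  have hinf : c.psi hy t 13 = 0 := c.psi_t_last hy t htP (by norm_num)
  have h0 : c.psi hy t 0 = 13 := c.psi_t_zero hy t htQ (by norm_num)
  rw [hY] at hr2
  rw [hX, hY] at hr1 hrange
  rw [hX] at hjj2
  generalize c.psi hy t = σ at hr2 hr1 hrange hinf h0 hjj2
  have hstep1 : ∀ z, σ (mpow 1 z) = mpow j (σ z) := fun z =>
    (hr2 z).trans (mPerm_pow j (σ z))
  have hstep : ∀ e z, σ (mpow e z) = mpow (j * e) (σ z) := by
    intro e
    induction e with
    | zero => intro z; rw [mpow_zero, Nat.mul_zero, mpow_zero]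
    | succ n ih =>
      intro z
      calc σ (mpow (n + 1) z) = σ (mpow 1 (mpow n z)) := by rw [mpow_add, Nat.add_comm 1 n]
        _ = mpow j (σ (mpow n z)) := hstep1 _
        _ = mpow j (mpow (j * n) (σ z)) := by rw [ih]
        _ = mpow (j * (n + 1)) (σ z) := by
          rw [mpow_add]; congr 1; ring
  have hcand : ∀ z, σ z = candF j (σ 1) (σ 2) z := cand_eq σ j h0 hinf hstep
  have hfun : (σ : Fin 14 → Fin 14) = candF j (σ 1) (σ 2) := funext hcand
  have hjj3 : σ 1 = ⟨jj, by omega⟩ := hjj2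
  have hjjv : (σ 1).val = jj := by rw [hjj3]
  have ha : σ 1 ≠ 13 := by
    intro hc
    have h1 := congrArg Fin.val hc
    rw [hjjv] at h1
    have h2 : jj = 13 := h1
    omega
  have hrel : relOK j (σ 1) (σ 2) := by
    show ∃ (k : Fin 13) (l : Fin 6), ∀ z : Fin 14,
      candF j (σ 1) (σ 2) (cpow 1 (candF j (σ 1) (σ 2) z)) =
        cpow (σ 1).val (candF j (σ 1) (σ 2) (cpow k (mpow l z)))
    rw [← hfun]
    refine ⟨⟨k, hk⟩, ⟨l, hl⟩, fun z => ?_⟩
    rw [hjjv]
    calc σ (cpow 1 (σ z)) = (cPerm ^ jj) (σ ((cPerm ^ k) ((mPerm ^ l) z))) := hr1 z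
      _ = cpow jj (σ (cpow k (mpow l z))) := by rw [cPerm_pow, cPerm_pow, mPerm_pow]
  obtain ⟨e, he⟩ := cand_cases ⟨j, hj⟩ (σ 1) (σ 2) ha hrel
  have hσ : σ = sPerm * mPerm ^ (e : ℕ) := Equiv.ext fun z => by
    rw [hcand z, Equiv.Perm.mul_apply, mPerm_pow]
    exact he z
  have hcl : Subgroup.closure ({cPerm, mPerm, σ} : Set (Equiv.Perm (Fin 14))) = model := by
    rw [hσ]
    apply le_antisymm
    · rw [Subgroup.closure_le]
      rintro g (rfl | rfl | rfl)
      · exact Subgroup.subset_closure (by simp)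
      · exact Subgroup.subset_closure (by simp)
      · exact mul_mem (Subgroup.subset_closure (by simp))
          (pow_mem (Subgroup.subset_closure (by simp)) _)
    · unfold model
      rw [Subgroup.closure_le]
      rintro g (rfl | rfl | rfl)
      · exact Subgroup.subset_closure (by simp)
      · exact Subgroup.subset_closure (by simp)
      · have key : (sPerm * mPerm ^ (e : ℕ)) * (mPerm ^ (e : ℕ))⁻¹ ∈
            Subgroup.closure ({cPerm, mPerm, sPerm * mPerm ^ (e : ℕ)} :
              Set (Equiv.Perm (Fin 14))) :=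
          mul_mem (Subgroup.subset_closure (by simp))
            (inv_mem (pow_mem (Subgroup.subset_closure (by simp)) _))
        rwa [mul_inv_cancel_right] at key
  exact ⟨(MonoidHom.ofInjective (c.psi_inj hy)).trans
    (MulEquiv.subgroupCongr (hrange.trans hcl))⟩

/-- any two simple groups of order 1092 are isomorphic -/
theorem equiv_of_card {G' : Type*} [Group G'] [Finite G'] [IsSimpleGroup G']
    (h : Nat.card G = 1092) (h' : Nat.card G' = 1092) : Nonempty (G ≃* G') := by
  obtain ⟨e⟩ := equiv_model h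
  obtain ⟨e'⟩ := equiv_model h'
  exact ⟨e.trans e'.symm⟩

end Cfsg.Agent.Helper4.Zass13
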